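import Cfsg.Agent.Lib.ElusSub.Descent
import Cfsg.Agent.Lib.Classical.SL2.SubLat
import Cfsg.Agent.Lib.Classical.SLBasic

/-!
# Scaled characteristic polynomials with coefficients in a subfield
-/

set_option autoImplicit false
set_option linter.unusedSectionVars false
set_option linter.unusedVariables false
set_option linter.style.haveILetI false

namespace Cfsg.Agent.Lib.ElusSub.Basic

open Polynomial Module Matrix

section zp

variable {F : Type*} [Field F] {r : ℕ} [hr : Fact r.Prime] {ζ : F}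

/-- Powers of a root of unity, exponent in `ZMod r`. -/
def zp (ζ : F) (b : ZMod r) : F := ζ ^ b.val

theorem zp_zero : zp ζ (0 : ZMod r) = 1 := by
  simp [zp, ZMod.val_zero]

theorem zp_add (h : ζ ^ r = 1) (a b : ZMod r) : zp ζ (a + b) = zp ζ a * zp ζ b := by
  unfold zp
  rw [ZMod.val_add, ← pow_add]
  conv_rhs => rw [← Nat.div_add_mod (a.val + b.val) r, pow_add, pow_mul, h, one_pow, one_mul]

theorem zp_sum (h : ζ ^ r = 1) {ι : Type*} (s : Finset ι) (a : ι → ZMod r) :
    zp ζ (∑ i ∈ s, a i) = ∏ i ∈ s, zp ζ (a i) := by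
  classical
  induction s using Finset.induction_on with
  | empty => simp [zp_zero]
  | insert i s hi ih => rw [Finset.sum_insert hi, Finset.prod_insert hi, zp_add h, ih]

theorem zp_natCast (h : ζ ^ r = 1) (m : ℕ) : zp ζ (m : ZMod r) = ζ ^ m := by
  unfold zp
  rw [ZMod.val_natCast]
  conv_rhs => rw [← Nat.div_add_mod m r, pow_add, pow_mul, h, one_pow, one_mul]

theorem zp_mul_natCast (h : ζ ^ r = 1) (m : ℕ) (b : ZMod r) : zp ζ ((m : ZMod r) * b) = (zp ζ b) ^ m := by
  induction m with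
  | zero => simp [zp_zero]
  | succ m ih =>
    push_cast
    rw [add_mul, one_mul, zp_add h, ih, pow_succ]

theorem zp_pow_r (h : ζ ^ r = 1) (b : ZMod r) : (zp ζ b) ^ r = 1 := by
  unfold zp
  rw [← pow_mul, mul_comm, pow_mul, h, one_pow]

theorem zp_inj (h : orderOf ζ = r) : Function.Injective (zp ζ : ZMod r → F) := by
  intro a b hab
  have ha : a.val < orderOf ζ := by
    rw [h]
    exact ZMod.val_lt a
  have hb : b.val < orderOf ζ := by
    rw [h]
    exact ZMod.val_lt b
  have := (pow_injOn_Iio_orderOf (x := ζ)) ha hb hab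
  exact ZMod.val_injective r this

theorem zp_ne_zero (h : ζ ≠ 0) (b : ZMod r) : zp ζ b ≠ 0 := pow_ne_zero _ h

end zp

section pat

variable {r : ℕ} [hr : Fact r.Prime]

/-- A multiset given by a pattern of three values. -/
def pat (b₁ b₂ b₃ : ZMod r) (s : ℕ) {n : ℕ} (j : Fin n) : ZMod r :=
  if (j : ℕ) = 0 then b₁ else if (j : ℕ) ≤ s then b₂ else b₃

theorem sum_ite_lt {A : Type*} [AddCommMonoid A] (m s : ℕ) (hs : s ≤ m) (u v : A) :
    ∑ j ∈ Finset.range m, (if j < s then u else v) = s • u + (m - s) • v := by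
  induction m, hs using Nat.le_induction with
  | base => 
    rw [Finset.sum_congr rfl (fun j hj => if_pos (Finset.mem_range.mp hj))]
    simp
  | succ m hm ih =>
    rw [Finset.sum_range_succ, ih, if_neg (by omega), add_assoc, ← succ_nsmul]
    congr 2
    omega

theorem sum_pat {A : Type*} [AddCommMonoid A] (G : ZMod r → A) (b₁ b₂ b₃ : ZMod r) {s n : ℕ} (h : s + 1 ≤ n) :
    ∑ j : Fin n, G (pat b₁ b₂ b₃ s j) = G b₁ + s • G b₂ + (n - 1 - s) • G b₃ := by
  obtain ⟨m, rfl⟩ : ∃ m, n = m + 1 := ⟨n - 1, by omega⟩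
  have e : ∀ j : Fin (m + 1), G (pat b₁ b₂ b₃ s j) = (fun i : ℕ => G (if i = 0 then b₁ else if i ≤ s then b₂ else b₃)) j :=
    fun j => rfl
  rw [Finset.sum_congr rfl (fun j _ => e j), Fin.sum_univ_eq_sum_range (fun i : ℕ => G (if i = 0 then b₁ else if i ≤ s then b₂ else b₃)),
    Finset.sum_range_succ']
  have e2 : ∀ i ∈ Finset.range m, G (if i + 1 = 0 then b₁ else if i + 1 ≤ s then b₂ else b₃) = if i < s then G b₂ else G b₃ := by
    intro i _
    rw [if_neg (by omega)]
    by_cases h1 : i < s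
    · rw [if_pos h1, if_pos (by omega)]
    · rw [if_neg h1, if_neg (by omega)]
  rw [Finset.sum_congr rfl e2, sum_ite_lt m s (by omega), if_pos rfl, add_comm, Nat.add_sub_cancel, add_assoc]

end pat

section coeff

variable {F : Type*} [Field F] [Fintype F]

/-- A conjugate in the subfield subgroup: the scaled characteristic polynomial has coefficients in the subfield. -/
theorem coeff_of_conj (F₀ : Subfield F) {n : ℕ} (x P : Matrix.SpecialLinearGroup (Fin n) F)
    (h : P⁻¹ * x * P ∈ (Cfsg.Geo.subfieldSubgroup F₀ 1).comap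
      (Matrix.SpecialLinearGroup.toGL : Matrix.SpecialLinearGroup (Fin n) F →* GL (Fin n) F)) :
    ∃ c : F, c ≠ 0 ∧ ∀ i, ((c⁻¹ • (x : Matrix (Fin n) (Fin n) F)).charpoly).coeff i ∈ F₀ := by
  classical
  rw [Subgroup.mem_comap] at h
  obtain ⟨c, A, hc, hA, hy⟩ := Cfsg.Agent.Lib.Elusive.SubfieldConj.exists_entries_of_mem F₀ _ h
  refine ⟨c, hc, fun i => ?_⟩
  have hy' : ((P⁻¹ * x * P : Matrix.SpecialLinearGroup (Fin n) F) : Matrix (Fin n) (Fin n) F) = c • A := hy
  have h1 : (P : Matrix (Fin n) (Fin n) F) * (c⁻¹ • ((P⁻¹ * x * P : Matrix.SpecialLinearGroup (Fin n) F) : Matrix (Fin n) (Fin n) F))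
      = (c⁻¹ • (x : Matrix (Fin n) (Fin n) F)) * (P : Matrix (Fin n) (Fin n) F) := by
    rw [Matrix.mul_smul, Matrix.smul_mul, ← Matrix.SpecialLinearGroup.coe_mul, ← Matrix.SpecialLinearGroup.coe_mul]
    congr 2
    rw [← mul_assoc, ← mul_assoc, mul_inv_cancel, one_mul]
  rw [hy', smul_smul, inv_mul_cancel₀ hc, one_smul] at h1
  have hu : IsUnit (P : Matrix (Fin n) (Fin n) F) := by
    rw [Matrix.isUnit_iff_isUnit_det]
    exact isUnit_iff_ne_zero.mpr (by
      rw [P.2]
      exact one_ne_zero)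
  obtain ⟨U, hU⟩ := hu
  have h2 : (c⁻¹ • (x : Matrix (Fin n) (Fin n) F)) = (U : Matrix (Fin n) (Fin n) F) * A * (U⁻¹ : (Matrix (Fin n) (Fin n) F)ˣ) := by
    rw [hU, h1, Matrix.mul_assoc, ← hU, Units.mul_inv, Matrix.mul_one]
  have h3 : (c⁻¹ • (x : Matrix (Fin n) (Fin n) F)).charpoly = A.charpoly := by
    rw [h2]
    have := Matrix.charpoly_units_conj U A
    rw [Matrix.coe_units_inv]
    exact this
  rw [h3]
  let A₀ : Matrix (Fin n) (Fin n) F₀ := fun i j => ⟨A i j, hA i j⟩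
  have hA₀ : A₀.map (F₀.subtype : F₀ →+* F) = A := by
    ext i j
    rfl
  rw [← hA₀, Matrix.charpoly_map, Polynomial.coeff_map]
  exact (A₀.charpoly.coeff i).2

variable (p : ℕ) [hp : Fact p.Prime] [CharP F p]

theorem map_frob_eq (F₀ : Subfield F) {s : ℕ} (hs : Nat.card F₀ = p ^ s) {g : F[X]} (hg : ∀ i, g.coeff i ∈ F₀) :
    g.map (iterateFrobenius F p s) = g := by
  ext i
  rw [coeff_map, iterateFrobenius_def, ← hs]
  exact Cfsg.Agent.Lib.Classical.SL2.SubLat.pow_card_of_mem (hg i)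

theorem coeff_of_map_frob (F₀ : Subfield F) {s : ℕ} (hs : Nat.card F₀ = p ^ s) {g : F[X]}
    (hg : g.map (iterateFrobenius F p s) = g) (i : ℕ) : g.coeff i ∈ F₀ := by
  rw [Cfsg.Agent.Lib.Classical.SL2.SubLat.mem_iff_pow, hs]
  have := congrArg (fun f => f.coeff i) hg
  simpa [coeff_map, iterateFrobenius_def] using this

end coeff

section mset

variable {F : Type*} [Field F] [Fintype F] (p : ℕ) [hp : Fact p.Prime] [CharP F p]
variable {r : ℕ} [hr : Fact r.Prime]

/-- The multiplicity function of `a`. -/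
noncomputable def mul' {n : ℕ} (a : Fin n → ZMod r) (b : ZMod r) : ℕ :=
  Multiset.count b (Multiset.map a (Finset.univ : Finset (Fin n)).val)

theorem mul'_eq_sum {n : ℕ} (a : Fin n → ZMod r) (b : ZMod r) : mul' a b = ∑ j, (if a j = b then 1 else 0) := by
  unfold mul'
  rw [Multiset.count_map, Finset.sum_boole, Nat.cast_id]
  congr 1
  ext j
  simp [eq_comm]

theorem mul'_pat (b₁ b₂ b₃ : ZMod r) {s n : ℕ} (h : s + 1 ≤ n) (b : ZMod r) :
    mul' (pat b₁ b₂ b₃ s : Fin n → ZMod r) b =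
      (if b₁ = b then 1 else 0) + s * (if b₂ = b then 1 else 0) + (n - 1 - s) * (if b₃ = b then 1 else 0) := by
  rw [mul'_eq_sum, sum_pat (fun c => if c = b then 1 else 0) b₁ b₂ b₃ h]
  simp

/-- The key invariance. -/
theorem inv_of_coeff (F₀ : Subfield F) {s : ℕ} (hs : Nat.card F₀ = p ^ s) {ζ w : F} (hζ : orderOf ζ = r) (hw : w ≠ 0)
    {n : ℕ} (hn : 1 ≤ n) (a : Fin n → ZMod r)
    (hg : ∀ i, (∏ j, (X - C (w * zp ζ (a j)))).coeff i ∈ F₀) (hrp : r ≠ p) :
    ∃ t : ZMod r, ∀ b, mul' a (((p ^ s : ℕ) : ZMod r) * b + t) = mul' a b := by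
  classical
  have hζr : ζ ^ r = 1 := by
    rw [← hζ]
    exact pow_orderOf_eq_one ζ
  have hζ0 : ζ ≠ 0 := by
    rintro rfl
    rw [zero_pow hr.out.ne_zero] at hζr
    exact zero_ne_one hζr
  set φ := iterateFrobenius F p s with hφ
  set Q₀ := p ^ s with hQ₀
  have h1 := map_frob_eq p F₀ hs hg
  have h2 : (∏ j, (X - C (φ (w * zp ζ (a j))))) = ∏ j, (X - C (w * zp ζ (a j))) := by
    rw [← h1, Polynomial.map_prod]
    simp only [Polynomial.map_sub, Polynomial.map_X, Polynomial.map_C]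
    rfl
  have h3 : Multiset.map (fun j => φ (w * zp ζ (a j))) (Finset.univ : Finset (Fin n)).val =
      Multiset.map (fun j => w * zp ζ (a j)) (Finset.univ : Finset (Fin n)).val := by
    have e : ∀ f : Fin n → F, ∏ j, (X - C (f j)) = (Multiset.map (fun y => X - C y)
        (Multiset.map f (Finset.univ : Finset (Fin n)).val)).prod := by
      intro f
      rw [Multiset.map_map]
      rfl
    rw [e, e] at h2
    have := congrArg Polynomial.roots h2
    rwa [roots_multiset_prod_X_sub_C, roots_multiset_prod_X_sub_C] at this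
  let j₀ : Fin n := ⟨0, by omega⟩
  have hφapply : ∀ y : F, φ y = y ^ Q₀ := fun y => iterateFrobenius_def p s y
  have hmem : φ (w * zp ζ (a j₀)) ∈ Multiset.map (fun j => w * zp ζ (a j)) (Finset.univ : Finset (Fin n)).val := by
    rw [← h3]
    exact Multiset.mem_map_of_mem _ (Finset.mem_univ j₀)
  obtain ⟨j₁, -, hj₁⟩ := Multiset.mem_map.mp hmem
  set θ : ZMod r := ((Q₀ : ℕ) : ZMod r) with hθ
  set t : ZMod r := a j₁ - θ * a j₀ with ht
  have hzpθ : ∀ b : ZMod r, zp ζ (θ * b) = (zp ζ b) ^ Q₀ := fun b => zp_mul_natCast hζr Q₀ b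
  have hw' : w ^ Q₀ = w * zp ζ t := by
    have h4 : zp ζ (a j₁) = zp ζ t * zp ζ (θ * a j₀) := by
      rw [← zp_add hζr]
      congr 1
      rw [ht]
      ring
    rw [hφapply, mul_pow, ← hzpθ, h4] at hj₁
    have h5 : zp ζ (θ * a j₀) ≠ 0 := zp_ne_zero hζ0 _
    apply mul_right_cancel₀ h5
    rw [← hj₁]
    ring
  let E : ZMod r → F := fun b => w * zp ζ b
  have hEinj : Function.Injective E := fun x y hxy => zp_inj hζ (mul_left_cancel₀ hw hxy)
  have hφE : ∀ j, φ (w * zp ζ (a j)) = E (θ * a j + t) := by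
    intro j
    rw [hφapply, mul_pow, hw', ← hzpθ]
    show _ = w * zp ζ (θ * a j + t)
    rw [zp_add hζr]
    ring
  set M := Multiset.map a (Finset.univ : Finset (Fin n)).val with hM
  have h6 : Multiset.map E (Multiset.map (fun b => θ * b + t) M) = Multiset.map E M := by
    rw [hM, Multiset.map_map, Multiset.map_map, Multiset.map_map]
    refine Eq.trans ?_ h3
    apply Multiset.map_congr rfl
    intro j _
    exact (hφE j).symm
  have h7 : Multiset.map (fun b => θ * b + t) M = M := Multiset.map_injective hEinj h6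
  have hθ0 : θ ≠ 0 := by
    intro h0
    rw [hθ, ZMod.natCast_eq_zero_iff, hQ₀] at h0
    have h8 := hr.out.dvd_of_dvd_pow h0
    exact hrp ((Nat.prime_dvd_prime_iff_eq hr.out hp.out).mp h8)
  have hfinj : Function.Injective (fun b : ZMod r => θ * b + t) := by
    intro x y hxy
    have : θ * x = θ * y := by simpa using hxy
    exact mul_left_cancel₀ hθ0 this
  refine ⟨t, fun b => ?_⟩
  have h8 := Multiset.count_map_eq_count' (fun b : ZMod r => θ * b + t) M hfinj b
  rw [h7] at h8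
  exact h8

/-- The test: two values of multiplicities that occur once each. -/
theorem no_inv {n : ℕ} (a : Fin n → ZMod r) {θ : ZMod r} (hθ : θ ≠ 1) {b₁ b₂ : ZMod r} (h12 : b₁ ≠ b₂)
    (h1 : ∀ b, mul' a b = mul' a b₁ → b = b₁) (h2 : ∀ b, mul' a b = mul' a b₂ → b = b₂) :
    ¬ ∃ t : ZMod r, ∀ b, mul' a (θ * b + t) = mul' a b := by
  rintro ⟨t, ht⟩
  have e1 := h1 _ (ht b₁)
  have e2 := h2 _ (ht b₂)
  have h3 : (θ - 1) * (b₁ - b₂) = 0 := by
    have : (θ * b₁ + t) - (θ * b₂ + t) = b₁ - b₂ := by rw [e1, e2]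
    linear_combination this
  rcases mul_eq_zero.mp h3 with h4 | h4
  · exact hθ (sub_eq_zero.mp h4)
  · exact h12 (sub_eq_zero.mp h4)

end mset

end Cfsg.Agent.Lib.ElusSub.Basic
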