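import Cfsg.Agent.Lib.MatConj.Semisimple
import Cfsg.Agent.Lib.Elusive.SubfieldConj
import Cfsg.Agent.Lib.PGBC.Poly

/-!
# Descent to a subfield for semisimple matrices

A semisimple matrix whose characteristic polynomial has coefficients in a subfield is conjugate to a matrix over
that subfield; the conjugation can be chosen in `SL`.
-/

set_option autoImplicit false
set_option linter.unusedSectionVars false
set_option linter.unusedVariables false
set_option linter.style.haveILetI false

namespace Cfsg.Agent.Lib.ElusSub.Descent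

open Polynomial Module Matrix Cfsg.Agent.Lib.MatConj.Semisimple

universe u v

section pi

variable {F : Type u} [Field F]

/-- The diagonal map on a product. -/
def piMap {κ : Type v} {A : κ → Type u} [∀ k, AddCommGroup (A k)] [∀ k, Module F (A k)]
    (f : ∀ k, A k →ₗ[F] A k) : (∀ k, A k) →ₗ[F] (∀ k, A k) :=
  LinearMap.pi fun k => f k ∘ₗ LinearMap.proj k

@[simp] theorem piMap_apply {κ : Type v} {A : κ → Type u} [∀ k, AddCommGroup (A k)] [∀ k, Module F (A k)]
    (f : ∀ k, A k →ₗ[F] A k) (x : ∀ k, A k) (k : κ) : piMap f x k = f k (x k) := rfl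

/-- Characteristic polynomial of a diagonal map. -/
theorem charpoly_piMap_fin (t : ℕ) : ∀ (A : Fin t → Type u) [∀ k, AddCommGroup (A k)] [∀ k, Module F (A k)]
    [∀ k, FiniteDimensional F (A k)] (f : ∀ k, A k →ₗ[F] A k),
    (piMap f).charpoly = ∏ k, (f k).charpoly := by
  induction t with
  | zero =>
    intro A _ _ _ f
    simp only [Finset.univ_eq_empty, Finset.prod_empty]
    have h0 : finrank F (∀ k, A k) = 0 := finrank_zero_of_subsingleton
    have hm : (piMap f).charpoly.Monic := LinearMap.charpoly_monic (piMap f)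
    have hd := LinearMap.charpoly_natDegree (piMap f)
    rw [h0] at hd
    exact (Polynomial.Monic.natDegree_eq_zero hm).mp hd
  | succ t ih =>
    intro A _ _ _ f
    let e : (∀ k, A k) ≃ₗ[F] A 0 × (∀ k : Fin t, A k.succ) :=
      { toFun := fun x => (x 0, fun k => x k.succ)
        invFun := fun y => Fin.cons y.1 y.2
        map_add' := fun a b => rfl
        map_smul' := fun c a => rfl
        left_inv := fun x => by
          funext k
          refine Fin.cases ?_ (fun j => ?_) k <;> simp
        right_inv := fun y => by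
          ext k <;> simp }
    have h3 : (e.symm.conj ((f 0).prodMap (piMap fun k : Fin t => f k.succ))) = piMap f := by
      refine LinearMap.ext fun x => ?_
      funext k
      refine Fin.cases ?_ (fun j => ?_) k <;> simp [LinearEquiv.conj_apply, e]
    have h2 := LinearEquiv.charpoly_conj e.symm ((f 0).prodMap (piMap fun k : Fin t => f k.succ))
    rw [h3, LinearMap.charpoly_prodMap, ih] at h2
    rw [h2, Fin.prod_univ_succ]

theorem charpoly_piMap {κ : Type v} [Fintype κ] (A : κ → Type u) [∀ k, AddCommGroup (A k)] [∀ k, Module F (A k)]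
    [∀ k, FiniteDimensional F (A k)] (f : ∀ k, A k →ₗ[F] A k) :
    (piMap f).charpoly = ∏ k, (f k).charpoly := by
  classical
  let ε := Fintype.equivFin κ
  let e : (∀ k, A k) ≃ₗ[F] ∀ j : Fin (Fintype.card κ), A (ε.symm j) :=
    { toFun := fun x j => x (ε.symm j)
      invFun := fun y k => cast (by simp) (y (ε k))
      map_add' := fun a b => rfl
      map_smul' := fun c a => rfl
      left_inv := fun x => by
        funext k
        have h : ε.symm (ε k) = k := by simp
        simp only
        generalize_proofs hp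
        revert hp
        generalize ε.symm (ε k) = k' at h ⊢
        subst h
        intro hp
        rfl
      right_inv := fun y => by
        funext j
        simp only
        have h : ε (ε.symm j) = j := by simp
        generalize_proofs hp
        revert hp
        rw [h]
        intro hp
        rfl }
  have h3 : e.conj (piMap f) = piMap (fun j => f (ε.symm j)) := by
    refine LinearMap.ext fun x => ?_
    funext j
    simp only [LinearEquiv.conj_apply, LinearMap.comp_apply, LinearEquiv.coe_coe, piMap_apply]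
    show piMap f (e.symm x) (ε.symm j) = _
    rw [piMap_apply]
    congr 1
    have : e (e.symm x) = x := e.apply_symm_apply x
    exact congrFun this j
  have h4 := LinearEquiv.charpoly_conj e (piMap f)
  rw [h3, charpoly_piMap_fin] at h4
  rw [← h4]
  exact (Equiv.prod_comp ε.symm fun k => (f k).charpoly)

theorem det_piMap {κ : Type v} [Fintype κ] (A : κ → Type u) [∀ k, AddCommGroup (A k)] [∀ k, Module F (A k)]
    [∀ k, FiniteDimensional F (A k)] (f : ∀ k, A k →ₗ[F] A k) :
    LinearMap.det (piMap f) = ∏ k, LinearMap.det (f k) := by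
  rw [LinearMap.det_eq_sign_charpoly_coeff, charpoly_piMap, finrank_pi_fintype, Polynomial.coeff_zero_eq_eval_zero,
    eval_prod]
  simp_rw [LinearMap.det_eq_sign_charpoly_coeff, Polynomial.coeff_zero_eq_eval_zero]
  rw [Finset.prod_mul_distrib, Finset.prod_pow_eq_pow_sum]

end pi

section ss

variable {F : Type u} {V : Type u} [Field F] [AddCommGroup V] [Module F V] [FiniteDimensional F V]

theorem charpoly_mulRoot (R : F[X]) (hR : Irreducible R) (hm : R.Monic) :
    haveI : FiniteDimensional F (AdjoinRoot R) := (AdjoinRoot.powerBasis' hm).finite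
    (LinearMap.mulLeft F (AdjoinRoot.root R)).charpoly = R := by
  haveI : Fact (Irreducible R) := ⟨hR⟩
  haveI : FiniteDimensional F (AdjoinRoot R) := (AdjoinRoot.powerBasis' hm).finite
  let pb := AdjoinRoot.powerBasis' hm
  have h1 := charpoly_leftMulMatrix pb
  have h2 : pb.gen = AdjoinRoot.root R := AdjoinRoot.powerBasis'_gen hm
  have hmin : minpoly F (AdjoinRoot.root R) = R := by
    rw [AdjoinRoot.minpoly_root hR.ne_zero, hm.leadingCoeff, inv_one, C_1, mul_one]
  rw [h2, hmin] at h1
  rw [← LinearMap.charpoly_toMatrix _ pb.basis]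
  exact h1

theorem SSDecomp.charpoly {κ : Type v} [Fintype κ] {T : V →ₗ[F] V} {R : κ → F[X]}
    {Φ : V ≃ₗ[F] ∀ k, AdjoinRoot (R k)} (h : SSDecomp T R Φ) :
    haveI : ∀ k, FiniteDimensional F (AdjoinRoot (R k)) := fun k => (AdjoinRoot.powerBasis' (h.monic k)).finite
    LinearMap.charpoly T = ∏ k, R k := by
  haveI : ∀ k, FiniteDimensional F (AdjoinRoot (R k)) := fun k => (AdjoinRoot.powerBasis' (h.monic k)).finite
  have h1 : Φ.conj T = piMap (fun k => LinearMap.mulLeft F (AdjoinRoot.root (R k))) := by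
    refine LinearMap.ext fun x => ?_
    funext k
    simp only [LinearEquiv.conj_apply, LinearMap.comp_apply, LinearEquiv.coe_coe, piMap_apply]
    rw [h.comm]
    simp
  have h2 := LinearEquiv.charpoly_conj Φ T
  rw [← h2, h1, charpoly_piMap]
  exact Finset.prod_congr rfl fun k _ => charpoly_mulRoot (R k) (h.irr k) (h.monic k)

/-- Same characteristic polynomial implies conjugate. -/
theorem conj_of_charpoly {T T' : V →ₗ[F] V} {f : F[X]} (hf : Squarefree f) (hT : aeval T f = 0) (hT' : aeval T' f = 0)
    (hc : LinearMap.charpoly T = LinearMap.charpoly T') : ∃ P : V ≃ₗ[F] V, ∀ x, P (T x) = T' (P x) := by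
  classical
  obtain ⟨κ, _, R, Φ, hD, -⟩ := exists_ssDecomp T f hf hT
  obtain ⟨κ', _, R', Φ', hD', -⟩ := exists_ssDecomp T' f hf hT'
  refine conj_of_card hD hD' fun Q => ?_
  have h1 := SSDecomp.charpoly hD
  have h2 := SSDecomp.charpoly hD'
  rw [h1, h2] at hc
  let M : Multiset F[X] := Multiset.map R Finset.univ.val
  let M' : Multiset F[X] := Multiset.map R' Finset.univ.val
  have hMprod : M.prod = M'.prod := hc
  have hMirr : ∀ a ∈ M, Irreducible a := by
    intro a ha
    obtain ⟨k, -, rfl⟩ := Multiset.mem_map.mp ha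
    exact hD.irr k
  have hMirr' : ∀ a ∈ M', Irreducible a := by
    intro a ha
    obtain ⟨k, -, rfl⟩ := Multiset.mem_map.mp ha
    exact hD'.irr k
  have hrel := UniqueFactorizationMonoid.factors_unique hMirr hMirr' (Associated.of_eq hMprod)
  have hMM' : M = M' := by
    have hmono : ∀ a ∈ M, a.Monic := by
      intro a ha
      obtain ⟨k, -, rfl⟩ := Multiset.mem_map.mp ha
      exact hD.monic k
    have hmono' : ∀ a ∈ M', a.Monic := by
      intro a ha
      obtain ⟨k, -, rfl⟩ := Multiset.mem_map.mp ha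
      exact hD'.monic k
    have : Multiset.Rel (· = ·) M M' := by
      refine Multiset.Rel.mono hrel ?_
      intro a ha b hb hab
      exact Polynomial.eq_of_monic_of_associated (hmono a ha) (hmono' b hb) hab
    exact Multiset.rel_eq.mp this
  have hc1 : ∀ {κ : Type u} [Fintype κ] (R : κ → F[X]), Nat.card {k // R k = Q} =
      Multiset.count Q (Multiset.map R Finset.univ.val) := by
    intro κ _ R
    rw [Multiset.count_map, Nat.card_eq_fintype_card, Fintype.card_subtype]
    simp only [eq_comm]
    rfl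
  rw [hc1, hc1]
  exact congrArg (Multiset.count Q) hMM'

variable [Finite F]

/-- A commuting automorphism of prescribed determinant. -/
theorem exists_comm_det [Nontrivial V] {T : V →ₗ[F] V} {f : F[X]} (hf : Squarefree f) (hT : aeval T f = 0) {δ : F} (hδ : δ ≠ 0) :
    ∃ U : V →ₗ[F] V, U ∘ₗ T = T ∘ₗ U ∧ LinearMap.det U = δ := by
  classical
  obtain ⟨κ, _, R, Φ, hD, -⟩ := exists_ssDecomp T f hf hT
  haveI hfd : ∀ k, FiniteDimensional F (AdjoinRoot (R k)) := fun k => (AdjoinRoot.powerBasis' (hD.monic k)).finite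
  haveI : ∀ k, Fact (Irreducible (R k)) := fun k => ⟨hD.irr k⟩
  have hne : Nonempty κ := by
    by_contra hemp
    rw [not_nonempty_iff] at hemp
    have : Subsingleton V := Φ.toEquiv.subsingleton
    exact not_subsingleton V this
  obtain ⟨k₀⟩ := hne
  haveI : Finite (AdjoinRoot (R k₀)) := Module.finite_of_finite F
  obtain ⟨t, ht⟩ := FiniteField.norm_surjective F (AdjoinRoot (R k₀)) δ
  let g : ∀ k, AdjoinRoot (R k) →ₗ[F] AdjoinRoot (R k) := fun k =>
    if h : k = k₀ then h ▸ (LinearMap.mulLeft F t) else LinearMap.id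
  have hg0 : g k₀ = LinearMap.mulLeft F t := by simp [g]
  have hg1 : ∀ k, k ≠ k₀ → g k = LinearMap.id := fun k hk => by simp [g, hk]
  have hcomm : ∀ k (y : AdjoinRoot (R k)), g k (AdjoinRoot.root (R k) * y) = AdjoinRoot.root (R k) * g k y := by
    intro k y
    by_cases hk : k = k₀
    · subst hk
      rw [hg0]
      simp only [LinearMap.mulLeft_apply]
      ring
    · rw [hg1 k hk]
      rfl
  let G := piMap g
  refine ⟨(Φ.symm.toLinearMap ∘ₗ G) ∘ₗ Φ.toLinearMap, ?_, ?_⟩
  · refine LinearMap.ext fun x => ?_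
    apply Φ.injective
    funext k
    simp only [LinearMap.comp_apply, LinearEquiv.coe_coe, LinearEquiv.apply_symm_apply]
    rw [hD.comm]
    simp only [LinearEquiv.apply_symm_apply, G, piMap_apply]
    rw [hD.comm]
    exact hcomm k _
  · have h1 : LinearMap.det ((Φ.symm.toLinearMap ∘ₗ G) ∘ₗ Φ.toLinearMap) = LinearMap.det G := by
      have := LinearMap.det_conj G Φ.symm
      rw [← this]
      rfl
    rw [h1, det_piMap, Finset.prod_eq_single k₀]
    · rw [hg0, ← ht]
      rfl
    · intro k _ hk
      rw [hg1 k hk, LinearMap.det_id]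
    · simp

end ss

section frob

variable {n : Type*} [Fintype n] [DecidableEq n] {F : Type*} [Field F] (p : ℕ) [hp : Fact p.Prime] [CharP F p]

/-- Characteristic polynomial of a Frobenius power. -/
theorem charpoly_pow_frob (M : Matrix n n F) (s : ℕ) :
    (M ^ p ^ s).charpoly = M.charpoly.map (iterateFrobenius F p s) := by
  cases isEmpty_or_nonempty n with
  | inl he => simp [Matrix.charpoly, Matrix.det_isEmpty]
  | inr hn =>
  apply Polynomial.expand_injective (pow_pos hp.out.pos s) (R := F)
  rw [← Polynomial.map_expand, map_iterateFrobenius_expand]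
  unfold Matrix.charpoly
  rw [AlgHom.map_det, ← Matrix.coe_detMonoidHom, ← (Matrix.detMonoidHom : Matrix n n F[X] →* F[X]).map_pow]
  apply congr_arg Matrix.det
  refine matPolyEquiv.injective ?_
  rw [map_pow, matPolyEquiv_charmatrix, sub_pow_char_pow_of_commute, ← C_pow]
  · exact (id (matPolyEquiv_eq_X_pow_sub_C (p ^ s) M) :)
  · exact (C M).commute_X

end frob

section descent

variable {F : Type u} [Field F] [Fintype F]

/-- Factorisation of a monic polynomial into irreducibles, indexed by a `Fin`. -/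
theorem exists_fin_factors {K : Type u} [Field K] (d : ℕ) : ∀ g : K[X], g.Monic → g.natDegree = d →
    ∃ (t : ℕ) (R : Fin t → K[X]), (∀ k, Irreducible (R k)) ∧ (∀ k, (R k).Monic) ∧ ∏ k, R k = g := by
  induction d using Nat.strong_induction_on with
  | _ d ih =>
    intro g hg hd
    by_cases hd0 : d = 0
    · subst hd0
      refine ⟨0, Fin.elim0, fun k => k.elim0, fun k => k.elim0, ?_⟩
      simp
      exact ((Polynomial.Monic.natDegree_eq_zero hg).mp hd).symm
    · have hu : ¬ IsUnit g := by
        intro h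
        have := Polynomial.natDegree_eq_zero_of_isUnit h
        omega
      obtain ⟨S, hS, hSi, h, hh⟩ := Polynomial.exists_monic_irreducible_factor g hu
      have hhm : h.Monic := by
        rw [hh] at hg
        exact hS.of_mul_monic_left hg
      have hdeg : S.natDegree + h.natDegree = d := by
        rw [← hd, hh, hS.natDegree_mul hhm]
      have hSd : 0 < S.natDegree := hSi.natDegree_pos
      obtain ⟨t, R, h1, h2, h3⟩ := ih h.natDegree (by omega) h hhm rfl
      refine ⟨t + 1, Fin.cons S R, ?_, ?_, ?_⟩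
      · intro k
        refine Fin.cases ?_ (fun j => ?_) k
        · simpa using hSi
        · simpa using h1 j
      · intro k
        refine Fin.cases ?_ (fun j => ?_) k
        · simpa using hS
        · simpa using h2 j
      · rw [Fin.prod_univ_succ]
        simp only [Fin.cons_zero, Fin.cons_succ]
        rw [h3, hh]

/-- A semisimple matrix with characteristic polynomial over `F₀` is, up to a scalar, `SL`-conjugate into `F₀`. -/
theorem exists_conj_of_coeff (F₀ : Subfield F) {n : ℕ} (hn : 1 ≤ n) (x : Matrix.SpecialLinearGroup (Fin n) F) (c : F)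
    (hc : c ≠ 0) {N : ℕ} (hN : (N : F) ≠ 0) (hB : (c⁻¹ • (x : Matrix (Fin n) (Fin n) F)) ^ N = 1)
    (hco : ∀ i, ((c⁻¹ • (x : Matrix (Fin n) (Fin n) F)).charpoly).coeff i ∈ F₀) :
    ∃ P : Matrix.SpecialLinearGroup (Fin n) F, P⁻¹ * x * P ∈ (Cfsg.Geo.subfieldSubgroup F₀ 1).comap
      (Matrix.SpecialLinearGroup.toGL : Matrix.SpecialLinearGroup (Fin n) F →* GL (Fin n) F) := by
  classical
  set B : Matrix (Fin n) (Fin n) F := c⁻¹ • (x : Matrix (Fin n) (Fin n) F) with hBdef
  have hN0 : N ≠ 0 := by
    rintro rfl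
    simp at hN
  have hgm : B.charpoly.Monic := Matrix.charpoly_monic B
  have hgd : B.charpoly.natDegree = n := by simpa using Matrix.charpoly_natDegree_eq_dim B
  let ι₀ : F₀ →+* F := F₀.subtype
  have hlift : B.charpoly ∈ Polynomial.lifts ι₀ := by
    rw [Polynomial.lifts_iff_coeff_lifts]
    intro i
    exact ⟨⟨_, hco i⟩, rfl⟩
  obtain ⟨g₀, hg₀, hg₀d, hg₀m⟩ := Polynomial.lifts_and_natDegree_eq_and_monic hlift hgm
  obtain ⟨t, R, hRi, hRm, hRp⟩ := exists_fin_factors _ g₀ hg₀m rfl
  have hsum : ∑ k, (R k).natDegree = finrank F₀ (Fin n → F₀) := by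
    rw [← Polynomial.natDegree_prod_of_monic _ _ (fun k _ => hRm k), hRp, hg₀d, hgd, Module.finrank_fin_fun]
  obtain ⟨T₀, Φ₀, hD₀⟩ := exists_ss (V := Fin n → F₀) R hRi hRm hsum
  have hχ₀ : LinearMap.charpoly T₀ = g₀ := by
    rw [SSDecomp.charpoly hD₀, hRp]
  set f : F[X] := X ^ N - 1 with hf
  have hfB : aeval B f = 0 := by
    simp [hf, hB]
  -- each factor divides `X ^ N - 1`
  have hRdvd : ∀ k, R k ∣ (X ^ N - 1 : F₀[X]) := by
    intro k
    by_contra hnd
    have hcop : IsCoprime (R k) (X ^ N - 1 : F₀[X]) := (hRi k).coprime_iff_not_dvd.mpr hnd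
    have hcop' : IsCoprime ((R k).map ι₀) f := by
      have := hcop.map (Polynomial.mapRingHom ι₀)
      simpa [hf, Polynomial.map_sub, Polynomial.map_pow] using this
    have hnu : ¬ IsUnit ((R k).map ι₀) := by
      intro h
      have h1 := Polynomial.natDegree_eq_zero_of_isUnit h
      rw [Polynomial.natDegree_map] at h1
      exact (hRi k).natDegree_pos.ne' h1
    obtain ⟨π, -, hπ, hπd⟩ := Polynomial.exists_monic_irreducible_factor _ hnu
    have hdvdg : (R k).map ι₀ ∣ B.charpoly := by
      rw [← hg₀, ← hRp]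
      exact Polynomial.map_dvd _ (Finset.dvd_prod_of_mem _ (Finset.mem_univ k))
    have h1 : π ∣ f := Cfsg.Agent.Lib.PGBC.Poly.dvd_of_annih B hπ (hπd.trans hdvdg) hfB
    exact hπ.not_isUnit (hcop'.isUnit_of_dvd' hπd h1)
  have hT₀ : T₀ ^ N = 1 := by
    refine LinearMap.ext fun v => ?_
    apply Φ₀.injective
    funext k
    have h1 := SSDecomp.comm_aeval hD₀ (X ^ N - 1 : F₀[X]) v k
    have h2 : (AdjoinRoot.mk (R k)) (X ^ N - 1 : F₀[X]) = 0 := AdjoinRoot.mk_eq_zero.mpr (hRdvd k)
    rw [h2, zero_mul] at h1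
    simp only [map_sub, map_pow, aeval_X, map_one, LinearMap.sub_apply, Module.End.one_apply, Pi.sub_apply] at h1
    have h3 := sub_eq_zero.mp h1
    simpa using h3
  let C₀ : Matrix (Fin n) (Fin n) F₀ := LinearMap.toMatrix' T₀
  have hC₀ : Matrix.toLin' C₀ = T₀ := Matrix.toLin'_toMatrix' T₀
  have hC₀χ : C₀.charpoly = g₀ := by
    rw [← Matrix.charpoly_toLin', hC₀, hχ₀]
  have hC₀N : C₀ ^ N = 1 := by
    apply Matrix.toLin'.injective
    rw [Matrix.toLin'_pow, hC₀, hT₀, Matrix.toLin'_one]
    rfl
  let D : Matrix (Fin n) (Fin n) F := C₀.map ι₀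
  have hDχ : D.charpoly = B.charpoly := by
    rw [Matrix.charpoly_map, hC₀χ, hg₀]
  have hDN : D ^ N = 1 := by
    have h1 : D ^ N = (C₀ ^ N).map ι₀ := by
      show (ι₀.mapMatrix C₀) ^ N = ι₀.mapMatrix (C₀ ^ N)
      rw [map_pow]
    rw [h1, hC₀N, Matrix.map_one _ (map_zero ι₀) (map_one ι₀)]
  have hfD : aeval D f = 0 := by
    simp [hf, hDN]
  have hfsq : Squarefree f := by
    have := (Polynomial.separable_X_pow_sub_C (1 : F) hN one_ne_zero).squarefree
    simpa [hf] using this
  have htoLin : ∀ A : Matrix (Fin n) (Fin n) F, aeval A f = 0 → aeval (Matrix.toLin' A) f = 0 := by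
    intro A hA
    have h1 : aeval (Matrix.toLin' A) f = Matrix.toLinAlgEquiv' (aeval A f) := by
      rw [← Polynomial.aeval_algHom_apply]
      rfl
    rw [h1, hA, map_zero]
  obtain ⟨P, hP⟩ := conj_of_charpoly hfsq (htoLin B hfB) (htoLin D hfD)
    (by rw [Matrix.charpoly_toLin', Matrix.charpoly_toLin', hDχ])
  haveI : NeZero n := ⟨by omega⟩
  haveI : Nontrivial (Fin n → F) := inferInstance
  let Rm : Matrix (Fin n) (Fin n) F := LinearMap.toMatrix' (P : (Fin n → F) →ₗ[F] (Fin n → F))
  let Qm : Matrix (Fin n) (Fin n) F := LinearMap.toMatrix' (P.symm : (Fin n → F) →ₗ[F] (Fin n → F))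
  have hQR : Qm * Rm = 1 := by
    rw [← LinearMap.toMatrix'_comp]
    simp
  have hRQ : Rm * Qm = 1 := by
    rw [← LinearMap.toMatrix'_comp]
    simp
  have hRB : Rm * B = D * Rm := by
    have hRl : Matrix.toLin' Rm = (P : (Fin n → F) →ₗ[F] (Fin n → F)) := Matrix.toLin'_toMatrix' _
    apply Matrix.toLin'.injective
    rw [Matrix.toLin'_mul, Matrix.toLin'_mul, hRl]
    exact LinearMap.ext hP
  have hQdet : Qm.det ≠ 0 := by
    intro h
    have := congrArg Matrix.det hQR
    rw [Matrix.det_mul, h, zero_mul, Matrix.det_one] at this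
    exact zero_ne_one this
  obtain ⟨U, hUc, hUd⟩ := exists_comm_det hfsq (htoLin B hfB) (inv_ne_zero hQdet)
  let Um : Matrix (Fin n) (Fin n) F := LinearMap.toMatrix' U
  have hUB : Um * B = B * Um := by
    apply Matrix.toLin'.injective
    simp only [Matrix.toLin'_mul, Um, Matrix.toLin'_toMatrix']
    exact hUc
  have hUdet : Um.det = (Qm.det)⁻¹ := by
    rw [← hUd, LinearMap.det_toMatrix']
  have hdet : (Um * Qm).det = 1 := by
    rw [Matrix.det_mul, hUdet, inv_mul_cancel₀ hQdet]
  let P' : Matrix.SpecialLinearGroup (Fin n) F := ⟨Um * Qm, hdet⟩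
  refine ⟨P', ?_⟩
  have hxB : (x : Matrix (Fin n) (Fin n) F) = c • B := by
    rw [hBdef, smul_smul, mul_inv_cancel₀ hc, one_smul]
  have hy : ((P'⁻¹ * x * P' : Matrix.SpecialLinearGroup (Fin n) F) : Matrix (Fin n) (Fin n) F) = c • D := by
    have h1 : (P' : Matrix (Fin n) (Fin n) F) * ((P'⁻¹ * x * P' : Matrix.SpecialLinearGroup (Fin n) F) : Matrix (Fin n) (Fin n) F) =
        (x : Matrix (Fin n) (Fin n) F) * (P' : Matrix (Fin n) (Fin n) F) := by
      rw [← Matrix.SpecialLinearGroup.coe_mul, ← Matrix.SpecialLinearGroup.coe_mul]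
      congr 1
      rw [← mul_assoc, ← mul_assoc, mul_inv_cancel, one_mul]
    have h2 : (P' : Matrix (Fin n) (Fin n) F) * (c • D) = (x : Matrix (Fin n) (Fin n) F) * (P' : Matrix (Fin n) (Fin n) F) := by
      have h3 : Qm * D = B * Qm := by
        calc Qm * D = Qm * (D * (Rm * Qm)) := by rw [hRQ, Matrix.mul_one]
          _ = Qm * ((D * Rm) * Qm) := by rw [Matrix.mul_assoc D]
          _ = Qm * ((Rm * B) * Qm) := by rw [hRB]
          _ = (Qm * Rm) * (B * Qm) := by simp only [Matrix.mul_assoc]
          _ = B * Qm := by rw [hQR, Matrix.one_mul]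
      show (Um * Qm) * (c • D) = (x : Matrix (Fin n) (Fin n) F) * (Um * Qm)
      rw [hxB, Matrix.mul_smul, Matrix.smul_mul, Matrix.mul_assoc Um, h3, ← Matrix.mul_assoc Um, hUB, Matrix.mul_assoc]
    have hu : IsUnit (P' : Matrix (Fin n) (Fin n) F) := by
      rw [Matrix.isUnit_iff_isUnit_det]
      exact isUnit_iff_ne_zero.mpr (by
        rw [P'.2]
        exact one_ne_zero)
    exact hu.mul_left_cancel (h1.trans h2.symm)
  refine Cfsg.Agent.Lib.Elusive.SubfieldConj.mem_of_entries F₀ _ c hc D ?_ hy
  intro i j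
  exact (C₀ i j).2

end descent

end Cfsg.Agent.Lib.ElusSub.Descent
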