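import Cfsg.Agent.Lib.ElusSub.Pos

/-!
# The positive direction, exceptional case
-/

set_option autoImplicit false
set_option linter.unusedSectionVars false
set_option linter.unusedVariables false
set_option linter.style.haveILetI false

namespace Cfsg.Agent.Lib.ElusSub.Exc

open Polynomial Module Matrix Cfsg.Agent.Lib.ElusSub.Basic Cfsg.Agent.Lib.ElusSub.Descent
open Cfsg.Agent.Lib.ElusSub.Pos

universe u

section reflect

variable {r : ℕ} [hr : Fact r.Prime]

theorem prod_eq_prod_mul {A : Type*} [CommMonoid A] {n : ℕ} (a : Fin n → ZMod r) (f : ZMod r → A) :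
    ∏ j, f (a j) = ∏ b, f b ^ mul' a b := by
  classical
  rw [← Finset.prod_fiberwise Finset.univ a]
  refine Finset.prod_congr rfl fun b _ => ?_
  rw [Finset.prod_congr rfl (g := fun _ => f b) (fun j hj => by rw [(Finset.mem_filter.mp hj).2])]
  rw [Finset.prod_const, mul'_eq_sum, Finset.card_filter]

theorem prod_reflect {A : Type*} [CommMonoid A] {n : ℕ} (a : Fin n → ZMod r) (c : ZMod r)
    (h : ∀ b, mul' a (c - b) = mul' a b) (f : ZMod r → A) : ∏ j, f (c - a j) = ∏ j, f (a j) := by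
  classical
  rw [prod_eq_prod_mul a (fun b => f (c - b)), prod_eq_prod_mul a f]
  rw [← Equiv.prod_comp (Equiv.subLeft c) (fun b => f b ^ mul' a b)]
  refine Finset.prod_congr rfl fun b _ => ?_
  simp [h]

theorem reflect_three (u0 u1 u2 : ZMod 3) (h : u0 + u1 + u2 = 0) : ∃ c : ZMod 3, ∀ b : ZMod 3,
    (if u0 = c - b then 1 else 0) + (if u1 = c - b then 1 else 0) + (if u2 = c - b then 1 else 0) =
    ((if u0 = b then 1 else 0) + (if u1 = b then 1 else 0) + (if u2 = b then 1 else 0) : ℕ) := by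
  revert u0 u1 u2
  decide +kernel

theorem reflect_five (u0 u1 u2 u3 u4 : ZMod 5) (h : u0 + u1 + u2 + u3 + u4 = 0) : ∃ c : ZMod 5, ∀ b : ZMod 5,
    (if u0 = c - b then 1 else 0) + (if u1 = c - b then 1 else 0) + (if u2 = c - b then 1 else 0) +
      (if u3 = c - b then 1 else 0) + (if u4 = c - b then 1 else 0) =
    ((if u0 = b then 1 else 0) + (if u1 = b then 1 else 0) + (if u2 = b then 1 else 0) +
      (if u3 = b then 1 else 0) + (if u4 = b then 1 else 0) : ℕ) := by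
  revert u0 u1 u2 u3 u4
  decide +kernel

theorem reflect_of (hr35 : r = 3 ∨ r = 5) (a : Fin r → ZMod r) (h : ∑ j, a j = 0) :
    ∃ c : ZMod r, ∀ b, mul' a (c - b) = mul' a b := by
  rcases hr35 with rfl | rfl
  · rw [Fin.sum_univ_three] at h
    obtain ⟨c, hc⟩ := reflect_three _ _ _ h
    refine ⟨c, fun b => ?_⟩
    rw [mul'_eq_sum, mul'_eq_sum, Fin.sum_univ_three, Fin.sum_univ_three]
    convert hc b
  · rw [Fin.sum_univ_five] at h
    obtain ⟨c, hc⟩ := reflect_five _ _ _ _ _ h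
    refine ⟨c, fun b => ?_⟩
    rw [mul'_eq_sum, mul'_eq_sum, Fin.sum_univ_five, Fin.sum_univ_five]
    convert hc b

end reflect

variable {F : Type u} [Field F] [Fintype F] (p : ℕ) [hp : Fact p.Prime] [CharP F p]
variable {r : ℕ} [hr : Fact r.Prime]

/-- The characteristic polynomial of a matrix of order dividing `r`. -/
theorem charpoly_split {n : ℕ} (B : Matrix (Fin n) (Fin n) F) {ζ : F} (hζ : orderOf ζ = r) (hB : B ^ r = 1) :
    ∃ a : Fin n → ZMod r, B.charpoly = ∏ j, (X - C (zp ζ (a j))) := by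
  classical
  have hrpr : r.Prime := hr.out
  have hP : IsPrimitiveRoot ζ r := hζ ▸ IsPrimitiveRoot.orderOf ζ
  have hζr : ζ ^ r = 1 := hP.pow_eq_one
  have hX := X_pow_sub_one_eq_prod hrpr.pos hP
  have hann : aeval B (X ^ r - 1 : F[X]) = 0 := by
    simp [hB]
  obtain ⟨t, R, hRi, hRm, hprod⟩ := exists_fin_factors _ B.charpoly (Matrix.charpoly_monic _) rfl
  have key : ∀ k, ∃ b : ZMod r, R k = X - C (zp ζ b) := by
    intro k
    have h1 : R k ∣ B.charpoly := by
      rw [← hprod]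
      exact Finset.dvd_prod_of_mem _ (Finset.mem_univ k)
    have h2 := Cfsg.Agent.Lib.PGBC.Poly.dvd_of_annih _ (hRi k) h1 hann
    rw [hX, (hRi k).prime.dvd_finsetProd_iff] at h2
    obtain ⟨w, hw, hd⟩ := h2
    have hw1 : w ^ r = 1 := by
      have := (Polynomial.mem_nthRootsFinset hrpr.pos (1 : F)).mp hw
      exact this
    obtain ⟨i, hi, rfl⟩ := hP.eq_pow_of_pow_eq_one hw1
    refine ⟨(i : ZMod r), ?_⟩
    rw [zp_natCast hζr]
    exact eq_of_monic_of_associated (hRm k) (monic_X_sub_C _) ((hRi k).associated_of_dvd (irreducible_X_sub_C _) hd)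
  choose a ha using key
  have hdeg : t = n := by
    have h1 := Matrix.charpoly_natDegree_eq_dim B
    rw [← hprod, natDegree_prod_of_monic _ _ (fun k _ => hRm k), Fintype.card_fin] at h1
    simp only [ha, natDegree_X_sub_C] at h1
    simpa using h1
  subst hdeg
  exact ⟨a, by rw [← hprod]; exact Finset.prod_congr rfl fun k _ => ha k⟩

/-- Scaling. -/
theorem charpoly_smul_of_prod {n : ℕ} (B : Matrix (Fin n) (Fin n) F) {w : F} (hw : w ≠ 0) (t : Fin n → F)
    (h : B.charpoly = ∏ j, (X - C (t j))) : (w • B).charpoly = ∏ j, (X - C (w * t j)) := by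
  classical
  let φ : F[X] →+* F[X] := (aeval (C w⁻¹ * X : F[X])).toRingHom
  have hφC : ∀ y : F, φ (C y) = C y := fun y => by simp [φ]
  have hφX : φ X = C w⁻¹ * X := by simp [φ]
  have hmat : charmatrix (w • B) = C w • (φ.mapMatrix (charmatrix B)) := by
    ext i j l
    by_cases hij : i = j
    · subst hij
      simp only [charmatrix_apply, Matrix.diagonal_apply_eq, Matrix.smul_apply, smul_eq_mul, RingHom.mapMatrix_apply,
        Matrix.map_apply, map_sub, hφC, hφX, mul_sub, ← mul_assoc, ← C_mul, mul_inv_cancel₀ hw, C_1, one_mul]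
    · simp only [charmatrix_apply, Matrix.diagonal_apply_ne _ hij, Matrix.smul_apply, smul_eq_mul, RingHom.mapMatrix_apply,
        Matrix.map_apply, map_sub, hφC, map_zero, mul_sub, mul_zero, ← C_mul]
  rw [Matrix.charpoly, hmat, Matrix.det_smul, Fintype.card_fin, ← RingHom.map_det,
    ← Matrix.charpoly, h, map_prod]
  have e : (C w : F[X]) ^ n = ∏ _j : Fin n, C w := by simp
  rw [e, ← Finset.prod_mul_distrib]
  refine Finset.prod_congr rfl fun j _ => ?_
  rw [map_sub, hφC, hφX, mul_sub, ← mul_assoc, ← C_mul, mul_inv_cancel₀ hw, C_1, one_mul, C_mul]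

theorem det_of_prod {n : ℕ} (B : Matrix (Fin n) (Fin n) F) (t : Fin n → F)
    (h : B.charpoly = ∏ j, (X - C (t j))) : B.det = ∏ j, t j := by
  rw [Matrix.det_eq_sign_charpoly_coeff, h, coeff_zero_eq_eval_zero, eval_prod, Fintype.card_fin]
  simp only [eval_sub, eval_X, eval_C, zero_sub]
  rw [Finset.prod_neg]
  simp [← mul_assoc, ← mul_pow]

/-- Generators. -/
theorem exists_gen {q : ℕ} (hq : Fintype.card F = q) : ∃ g : F, orderOf g = q - 1 ∧ g ≠ 0 ∧ ∀ y : F, y ≠ 0 → ∃ e : ℕ, g ^ e = y := by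
  classical
  obtain ⟨g, hg⟩ := IsCyclic.exists_ofOrder_eq_natCard (α := Fˣ)
  have hcard : Nat.card Fˣ = q - 1 := by
    rw [Nat.card_eq_fintype_card, Fintype.card_units, hq]
  rw [hcard] at hg
  refine ⟨(g : F), by rw [orderOf_units]; exact hg, g.ne_zero, fun y hy => ?_⟩
  have h1 : Units.mk0 y hy ∈ Subgroup.zpowers g := by
    have h2 : Subgroup.zpowers g = ⊤ := by
      apply Subgroup.eq_top_of_card_eq
      rw [Nat.card_zpowers, hg, hcard]
    rw [h2]
    exact Subgroup.mem_top _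
  have hfin : IsOfFinOrder g := isOfFinOrder_of_finite g
  rw [← hfin.mem_powers_iff_mem_zpowers] at h1
  obtain ⟨e, he⟩ := h1
  refine ⟨e, ?_⟩
  have := congrArg (fun u : Fˣ => (u : F)) he
  simpa using this

/-- Elements of norm one are of the form `w ^ (q₀ - 1)`. -/
theorem exists_norm_one {q q₀ : ℕ} (hq : Fintype.card F = q) (hqk : q = q₀ ^ 2) (hq₀ : 2 ≤ q₀) {y : F}
    (hy : y ^ (q₀ + 1) = 1) : ∃ w : F, w ≠ 0 ∧ w ^ (q₀ - 1) = y := by
  classical
  obtain ⟨g, hg, hg0, hgen⟩ := exists_gen hq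
  have hy0 : y ≠ 0 := by
    rintro rfl
    rw [zero_pow (by omega)] at hy
    exact zero_ne_one hy
  obtain ⟨e, rfl⟩ := hgen y hy0
  have h1 : q - 1 ∣ e * (q₀ + 1) := by
    rw [← hg]
    apply orderOf_dvd_of_pow_eq_one
    rw [pow_mul]
    exact hy
  have h2 : q - 1 = (q₀ - 1) * (q₀ + 1) := by
    rw [hqk]
    have : 1 ≤ q₀ := by omega
    zify [this, Nat.one_le_pow 2 q₀ this]
    ring
  rw [h2] at h1
  have h3 : q₀ - 1 ∣ e := Nat.dvd_of_mul_dvd_mul_right (by omega) h1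
  obtain ⟨m, rfl⟩ := h3
  exact ⟨g ^ m, pow_ne_zero _ hg0, by rw [← pow_mul, mul_comm]⟩

/-- The positive direction, in the exceptional case. -/
theorem pos_exc (F₀ : Subfield F) {s q : ℕ} (hs : Nat.card F₀ = p ^ s) (hq : Fintype.card F = q)
    (hqk : q = (p ^ s) ^ 2) (hr35 : r = 3 ∨ r = 5) (hrp : r ≠ p) (hv : padicValNat r (p ^ s + 1) = 1)
    (x : Matrix.SpecialLinearGroup (Fin r) F) {z : F}
    (hx : ((x ^ r : Matrix.SpecialLinearGroup (Fin r) F) : Matrix (Fin r) (Fin r) F) = z • (1 : Matrix (Fin r) (Fin r) F)) :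
    ∃ P : Matrix.SpecialLinearGroup (Fin r) F, P⁻¹ * x * P ∈ (Cfsg.Geo.subfieldSubgroup F₀ 1).comap
      (Matrix.SpecialLinearGroup.toGL : Matrix.SpecialLinearGroup (Fin r) F →* GL (Fin r) F) := by
  classical
  have hrpr : r.Prime := hr.out
  have hr2 : r ≠ 2 := by
    rcases hr35 with rfl | rfl <;> norm_num
  have hrF : ((r : ℕ) : F) ≠ 0 := by
    rw [Ne, CharP.cast_eq_zero_iff F p]
    intro h
    exact hrp ((Nat.prime_dvd_prime_iff_eq hp.out hrpr).mp h).symm
  have hq1' : 1 < q := by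
    rw [← hq]
    exact Fintype.one_lt_card
  have hq₀1 : 1 ≤ p ^ s := Nat.one_le_pow _ _ hp.out.pos
  have hq₀2 : 2 ≤ p ^ s := by
    by_contra h
    have h1 : p ^ s = 1 := by omega
    rw [h1] at hqk
    simp at hqk
    omega
  have hrd : r ∣ p ^ s + 1 := dvd_of_one_le_padicValNat (by omega)
  have hfac : q - 1 = (p ^ s + 1) * (p ^ s - 1) := by
    rw [hqk]
    zify [hq₀1, Nat.one_le_pow 2 (p ^ s) hq₀1]
    ring
  have hrq : r ∣ q - 1 := by
    rw [hfac]
    exact hrd.trans (dvd_mul_right _ _)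
  obtain ⟨ζ, hζ0, hζ⟩ := Cfsg.Agent.Lib.ElusSub.NegMain.exists_order hq hrq
  have hζr : ζ ^ r = 1 := by
    rw [← hζ]
    exact pow_orderOf_eq_one ζ
  -- `r² ∤ q - 1`
  have hnd2 : ¬ r ^ 2 ∣ q - 1 := by
    intro h
    have hrq₀ : ¬ r ∣ p ^ s - 1 := by
      intro h1
      have h2 : r ∣ 2 := by
        have h3 := (Nat.dvd_sub hrd h1)
        have e : p ^ s + 1 - (p ^ s - 1) = 2 := by omega
        rwa [e] at h3
      exact hr2 ((Nat.prime_dvd_prime_iff_eq hrpr Nat.prime_two).mp h2)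
    have hcop : Nat.Coprime (r ^ 2) (p ^ s - 1) :=
      Nat.Coprime.pow_left _ ((Nat.Prime.coprime_iff_not_dvd hrpr).mpr hrq₀)
    rw [hfac] at h
    have h2 : r ^ 2 ∣ p ^ s + 1 := hcop.dvd_of_dvd_mul_right h
    have h3 := (padicValNat_dvd_iff_le (by positivity)).mp h2
    omega
  -- the scalar is one
  obtain ⟨μ, hμ⟩ : ∃ μ : F, μ ^ r = z := by
    by_contra hcon
    push Not at hcon
    obtain ⟨t, ht, hzt⟩ := scalar_of_not_pow hr2 x hx hcon
    have ht1 : t = 1 := by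
      have h1 : r * 1 = r * t := by rw [mul_one]; exact ht
      exact (Nat.eq_of_mul_eq_mul_left hrpr.pos h1).symm
    rw [ht1, pow_one] at hzt
    exact hcon 1 (by rw [one_pow, hzt])
  have hz0 : z ≠ 0 := by
    rintro rfl
    have h1 := congrArg Matrix.det hx
    haveI : Nonempty (Fin r) := ⟨⟨0, hrpr.pos⟩⟩
    rw [Matrix.SpecialLinearGroup.det_coe, zero_smul, Matrix.det_zero] at h1
    exact one_ne_zero h1
  have hμ0 : μ ≠ 0 := by
    rintro rfl
    rw [zero_pow hrpr.ne_zero] at hμ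
    exact hz0 hμ.symm
  have hBr : (μ⁻¹ • (x : Matrix (Fin r) (Fin r) F)) ^ r = 1 := by
    rw [_root_.smul_pow, ← Matrix.SpecialLinearGroup.coe_pow, hx, smul_smul, inv_pow, hμ, inv_mul_cancel₀ hz0, one_smul]
  obtain ⟨a₁, ha₁⟩ := charpoly_split _ hζ hBr
  have hdet₁ := det_of_prod _ _ ha₁
  rw [Matrix.det_smul, x.det_coe, mul_one, Fintype.card_fin, inv_pow, hμ, ← zp_sum hζr] at hdet₁
  have hzr : z ^ r = 1 := by
    have h1 := zp_pow_r hζr (∑ j, a₁ j)
    rw [← hdet₁, inv_pow] at h1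
    exact inv_eq_one.mp h1
  have hμr2 : μ ^ r ^ 2 = 1 := by
    rw [pow_two, pow_mul, hμ, hzr]
  have hμq : μ ^ (q - 1) = 1 := by
    rw [← hq]
    exact FiniteField.pow_card_sub_one_eq_one μ hμ0
  have hz1 : z = 1 := by
    rw [← hμ]
    obtain ⟨i, hi, hi2⟩ := (Nat.dvd_prime_pow hrpr).mp (orderOf_dvd_of_pow_eq_one hμr2)
    have hle : i ≠ 2 := by
      rintro rfl
      exact hnd2 (hi2 ▸ orderOf_dvd_of_pow_eq_one hμq)
    have h3 : orderOf μ ∣ r := by
      rw [hi2]
      have h4 : r ^ i ∣ r ^ 1 := Nat.pow_dvd_pow r (by omega)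
      simpa using h4
    exact orderOf_dvd_iff_pow_eq_one.mp h3
  subst hz1
  have hxr : (x : Matrix (Fin r) (Fin r) F) ^ r = 1 := by
    rw [← Matrix.SpecialLinearGroup.coe_pow, hx, one_smul]
  obtain ⟨a, ha⟩ := charpoly_split _ hζ hxr
  have hsum : ∑ j, a j = 0 := by
    have hdet := det_of_prod _ _ ha
    rw [x.det_coe, ← zp_sum hζr, ← zp_zero (r := r) (ζ := ζ)] at hdet
    exact (zp_inj hζ hdet).symm
  obtain ⟨c, hc⟩ := reflect_of hr35 a hsum
  have hzc : (zp ζ c) ^ (p ^ s + 1) = 1 := by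
    obtain ⟨m, hm⟩ := hrd
    rw [hm, pow_mul, zp_pow_r hζr, one_pow]
  obtain ⟨w, hw0, hw⟩ := exists_norm_one hq hqk hq₀2 hzc
  have hch := charpoly_smul_of_prod (x : Matrix (Fin r) (Fin r) F) hw0 _ ha
  have hθ : ((p ^ s : ℕ) : ZMod r) = -1 := by
    have h1 := (ZMod.natCast_eq_zero_iff _ _).mpr hrd
    push_cast at h1 ⊢
    linear_combination h1
  have hfrob : ∀ b : ZMod r, (w * zp ζ b) ^ p ^ s = w * zp ζ (c - b) := by
    intro b
    have h1 : (zp ζ b) ^ p ^ s = zp ζ (-b) := by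
      rw [← zp_mul_natCast hζr, hθ]
      simp
    have h2 : w ^ p ^ s = w * zp ζ c := by
      rw [← hw, ← pow_succ']
      congr 1
      omega
    rw [mul_pow, h1, h2, mul_assoc, ← zp_add hζr, sub_eq_add_neg]
  have hmap : ((w • (x : Matrix (Fin r) (Fin r) F)).charpoly).map (iterateFrobenius F p s) =
      (w • (x : Matrix (Fin r) (Fin r) F)).charpoly := by
    rw [hch, Polynomial.map_prod]
    simp only [Polynomial.map_sub, map_X, map_C, iterateFrobenius_def, hfrob]
    exact prod_reflect a c hc (fun b => X - C (w * zp ζ b))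
  have hN : ((r * (q - 1) : ℕ) : F) ≠ 0 := by
    push_cast
    refine mul_ne_zero hrF ?_
    rw [Nat.cast_sub hq1'.le, ← hq, Nat.cast_one, FiniteField.cast_card_eq_zero]
    simp
  have hpow : (w • (x : Matrix (Fin r) (Fin r) F)) ^ (r * (q - 1)) = 1 := by
    rw [_root_.smul_pow, pow_mul (x : Matrix (Fin r) (Fin r) F), hxr, one_pow, mul_comm, pow_mul, ← hq,
      FiniteField.pow_card_sub_one_eq_one w hw0, one_pow, one_smul]
  refine exists_conj_of_coeff F₀ hrpr.pos x w⁻¹ (inv_ne_zero hw0) hN ?_ ?_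
  · rw [inv_inv]
    exact hpow
  · rw [inv_inv]
    exact coeff_of_map_frob p F₀ hs hmap

end Cfsg.Agent.Lib.ElusSub.Exc
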