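import Cfsg.Agent.Lib.ElusSub.Basic

/-!
# A prime dividing the index of the subfield subgroup
-/

set_option autoImplicit false
set_option linter.unusedSectionVars false
set_option linter.unusedVariables false
set_option linter.style.haveILetI false

namespace Cfsg.Agent.Lib.ElusSub.Index

open Polynomial Module Matrix Cfsg.Agent.Lib.Elusive.SubfieldConj

/-- Geometric sum. -/
def geo (k x : ℕ) : ℕ := ∑ l ∈ Finset.range k, x ^ l

theorem mul_geo (k x : ℕ) (hx : 1 ≤ x) : (x - 1) * geo k x = x ^ k - 1 := by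
  have h1 := mul_geom_sum (x : ℤ) k
  have h2 : 1 ≤ x ^ k := Nat.one_le_pow _ _ hx
  zify [hx, h2]
  rw [← h1]
  simp [geo]

variable {F : Type*} [Field F] [Fintype F] (p : ℕ) [hp : Fact p.Prime] [CharP F p]

/-- If the prime `r` divides the index, it divides a geometric sum. -/
theorem exists_of_dvd_index (F₀ : Subfield F) {q q₀ k : ℕ} (hq : Fintype.card F = q)
    (hF₀ : Nat.card ↥F₀ = q₀) (hqk : q = q₀ ^ k) (hk : 1 ≤ k) {n : ℕ} (hn : 1 ≤ n) {r : ℕ} (hr : r.Prime) (hrp : r ≠ p)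
    (hs : q₀.Coprime r)
    (hΩ : r ∣ ((Cfsg.Geo.subfieldSubgroup F₀ 1).comap (Matrix.SpecialLinearGroup.toGL : Matrix.SpecialLinearGroup (Fin n) F →* GL (Fin n) F)).index) :
    ∃ j, 2 ≤ j ∧ j ≤ n ∧ r ∣ geo k (q₀ ^ j) := by
  classical
  by_contra hcon
  push Not at hcon
  haveI : Fintype ↥F₀ := Fintype.ofFinite _
  obtain ⟨m, rfl⟩ : ∃ m, n = m + 1 := ⟨n - 1, by omega⟩
  haveI : Nonempty (Fin (m + 1)) := ⟨0⟩
  have hF₀' : Fintype.card ↥F₀ = q₀ := by rw [← Nat.card_eq_fintype_card, hF₀]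
  have hq₀2 : 2 ≤ q₀ := hF₀' ▸ Fintype.one_lt_card
  let φ : Matrix.SpecialLinearGroup (Fin (m + 1)) ↥F₀ →* Matrix.SpecialLinearGroup (Fin (m + 1)) F :=
    Matrix.SpecialLinearGroup.map (F₀.subtype : ↥F₀ →+* F)
  have hφinj : Function.Injective φ := by
    intro a b hab
    apply Subtype.ext
    ext i j
    have h1 := congrFun (congrFun (congrArg (fun y : Matrix.SpecialLinearGroup (Fin (m + 1)) F => (y : Matrix (Fin (m + 1)) (Fin (m + 1)) F)) hab) i) j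
    exact h1
  have hle : φ.range ≤ (Cfsg.Geo.subfieldSubgroup F₀ 1).comap (Matrix.SpecialLinearGroup.toGL : Matrix.SpecialLinearGroup (Fin (m + 1)) F →* GL (Fin (m + 1)) F) := by
    rintro _ ⟨g, rfl⟩
    refine mem_of_entries F₀ _ 1 one_ne_zero ((g : Matrix (Fin (m + 1)) (Fin (m + 1)) ↥F₀).map (F₀.subtype : ↥F₀ →+* F)) ?_ ?_
    · intro i j
      simp
    · rw [one_smul]
      rfl
  have hdvd := Subgroup.index_dvd_of_le hle
  have hcard : Nat.card φ.range = Nat.card (Matrix.SpecialLinearGroup (Fin (m + 1)) ↥F₀) :=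
    Nat.card_congr (MonoidHom.ofInjective hφinj).toEquiv.symm
  have hidx := Subgroup.index_mul_card φ.range
  rw [hcard] at hidx
  set idx := φ.range.index
  set c₀ := Nat.card (Matrix.SpecialLinearGroup (Fin (m + 1)) ↥F₀)
  set c := Nat.card (Matrix.SpecialLinearGroup (Fin (m + 1)) F)
  have hc₀pos : 0 < c₀ := Nat.card_pos
  have hgl := Cfsg.Agent.Lib.Classical.SLBasic.card_gl_eq_mul_card_sl (F := F) (ι := Fin (m + 1))
  have hgl₀ := Cfsg.Agent.Lib.Classical.SLBasic.card_gl_eq_mul_card_sl (F := ↥F₀) (ι := Fin (m + 1))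
  have hGL := Matrix.card_GL_field (𝔽 := F) (m + 1)
  have hGL₀ := Matrix.card_GL_field (𝔽 := ↥F₀) (m + 1)
  rw [hq] at hgl hGL
  rw [hF₀'] at hgl₀ hGL₀
  -- the factors
  let T : Fin (m + 1) → ℕ := fun i => (q₀ ^ (i : ℕ)) ^ (k - 1) * geo k (q₀ ^ (m + 1 - i))
  have hfac : ∀ i : Fin (m + 1), q ^ (m + 1) - q ^ (i : ℕ) = (q₀ ^ (m + 1) - q₀ ^ (i : ℕ)) * T i := by
    intro i
    have hi : (i : ℕ) ≤ m + 1 := by omega
    have h1 : q₀ ^ (m + 1) = q₀ ^ (i : ℕ) * q₀ ^ (m + 1 - i) := by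
      rw [← pow_add]
      congr 1
      omega
    have h2 : q ^ (m + 1) = q ^ (i : ℕ) * q ^ (m + 1 - i) := by
      rw [← pow_add]
      congr 1
      omega
    have h3 : 1 ≤ q₀ ^ (m + 1 - (i : ℕ)) := Nat.one_le_pow _ _ (by omega)
    have h4 := mul_geo k (q₀ ^ (m + 1 - (i : ℕ))) h3
    have h5 : q ^ (m + 1 - (i : ℕ)) = (q₀ ^ (m + 1 - (i : ℕ))) ^ k := by
      rw [hqk, ← pow_mul, ← pow_mul, mul_comm]
    have h6 : q ^ (i : ℕ) = q₀ ^ (i : ℕ) * (q₀ ^ (i : ℕ)) ^ (k - 1) := by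
      rw [hqk, ← pow_succ', ← pow_mul, ← pow_mul, mul_comm k]
      congr 2
      omega
    rw [h2, h1, ← Nat.mul_sub_one, ← Nat.mul_sub_one, h6]
    show q₀ ^ (i : ℕ) * (q₀ ^ (i : ℕ)) ^ (k - 1) * (q ^ (m + 1 - (i : ℕ)) - 1) =
      q₀ ^ (i : ℕ) * (q₀ ^ (m + 1 - (i : ℕ)) - 1) * ((q₀ ^ (i : ℕ)) ^ (k - 1) * geo k (q₀ ^ (m + 1 - (i : ℕ))))
    rw [h5, ← h4]
    ring
  have hprod : ∏ i : Fin (m + 1), (q ^ (m + 1) - q ^ (i : ℕ)) =
      (∏ i : Fin (m + 1), (q₀ ^ (m + 1) - q₀ ^ (i : ℕ))) * ∏ i, T i := by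
    rw [← Finset.prod_mul_distrib]
    exact Finset.prod_congr rfl (fun i _ => hfac i)
  have hW := mul_geo k q₀ (by omega)
  rw [← hqk] at hW
  set W := geo k q₀ with hWdef
  have hq₀1 : 0 < q₀ - 1 := by omega
  have hWpos : 0 < W := by
    have hq1 : 1 < q := by
      rw [hqk]
      exact Nat.one_lt_pow (by omega) (by omega)
    by_contra h0
    have : W = 0 := by omega
    rw [this, mul_zero] at hW
    omega
  have hmain : (q₀ - 1) * (W * (idx * c₀)) = (q₀ - 1) * (c₀ * ∏ i, T i) := by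
    have h1 : (q - 1) * c = (q₀ - 1) * c₀ * ∏ i, T i := by
      rw [← hgl, hGL, hprod, ← hGL₀, hgl₀]
    rw [← hidx, ← hW] at h1
    linarith
  have h2 := Nat.eq_of_mul_eq_mul_left hq₀1 hmain
  have h3 : W * idx = ∏ i, T i := by
    apply Nat.eq_of_mul_eq_mul_right hc₀pos
    calc W * idx * c₀ = W * (idx * c₀) := by ring
      _ = c₀ * ∏ i, T i := h2
      _ = (∏ i, T i) * c₀ := by ring
  -- the last factor
  rw [Fin.prod_univ_castSucc] at h3
  have hlast : T (Fin.last m) = (q₀ ^ m) ^ (k - 1) * W := by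
    show (q₀ ^ ((Fin.last m : Fin (m + 1)) : ℕ)) ^ (k - 1) * geo k (q₀ ^ (m + 1 - ((Fin.last m : Fin (m + 1)) : ℕ))) = _
    simp [hWdef]
  rw [hlast] at h3
  have h4 : idx = (∏ i : Fin m, T i.castSucc) * (q₀ ^ m) ^ (k - 1) := by
    apply Nat.eq_of_mul_eq_mul_left hWpos
    rw [h3]
    ring
  have hidx2 : r ∣ idx := hΩ.trans hdvd
  rw [h4] at hidx2
  rcases (hr.dvd_mul).mp hidx2 with h5 | h5
  · obtain ⟨i, -, hi⟩ := (Prime.dvd_finsetProd_iff hr.prime _).mp h5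
    rw [show T i.castSucc = (q₀ ^ (i : ℕ)) ^ (k - 1) * geo k (q₀ ^ (m + 1 - (i : ℕ))) from rfl] at hi
    rcases (hr.dvd_mul).mp hi with h6 | h6
    · have h7 := hr.dvd_of_dvd_pow (hr.dvd_of_dvd_pow h6)
      exact ((Nat.Prime.coprime_iff_not_dvd hr).mp hs.symm) h7
    · have hi2 := i.2
      exact hcon (m + 1 - i) (by omega) (by omega) h6
  · have h7 := hr.dvd_of_dvd_pow (hr.dvd_of_dvd_pow h5)
    exact ((Nat.Prime.coprime_iff_not_dvd hr).mp hs.symm) h7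

end Cfsg.Agent.Lib.ElusSub.Index
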