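import Cfsg.Agent.Lib.ElusSub.Index
import Cfsg.Agent.Lib.MatConj.CycloFactors

/-!
# Elements of prime order outside the conjugates of the subfield subgroup
-/

set_option autoImplicit false
set_option linter.unusedSectionVars false
set_option linter.unusedVariables false
set_option linter.style.haveILetI false

namespace Cfsg.Agent.Lib.ElusSub.Neg

open Polynomial Module Matrix Cfsg.Agent.Lib.ElusSub.Basic Cfsg.Agent.Lib.ElusSub.Descent
open Cfsg.Agent.Lib.MatConj.Semisimple

universe u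

section diag

variable {F : Type*} [Field F] [Fintype F] (p : ℕ) [hp : Fact p.Prime] [CharP F p]
variable {r : ℕ} [hr : Fact r.Prime]

/-- A scaled diagonal element outside the conjugates of the subfield subgroup. -/
theorem exists_diag (F₀ : Subfield F) {s : ℕ} (hs : Nat.card F₀ = p ^ s) {ζ μ : F} (hζ : orderOf ζ = r) (hμ : μ ≠ 0)
    {n : ℕ} (hn : 1 ≤ n) (a : Fin n → ZMod r) (hrp : r ≠ p) (hdet : μ ^ n = zp ζ (∑ j, a j))
    {j₁ j₂ : Fin n} (hj : a j₁ ≠ a j₂)
    (hno : ¬ ∃ t : ZMod r, ∀ b, mul' a (((p ^ s : ℕ) : ZMod r) * b + t) = mul' a b) :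
    ∃ x : Matrix.SpecialLinearGroup (Fin n) F,
      (∃ z : F, ((x ^ r : Matrix.SpecialLinearGroup (Fin n) F) : Matrix (Fin n) (Fin n) F) = z • (1 : Matrix (Fin n) (Fin n) F)) ∧
      (∀ z : F, (x : Matrix (Fin n) (Fin n) F) ≠ z • (1 : Matrix (Fin n) (Fin n) F)) ∧
      ∀ P : Matrix.SpecialLinearGroup (Fin n) F, P⁻¹ * x * P ∉ (Cfsg.Geo.subfieldSubgroup F₀ 1).comap
        (Matrix.SpecialLinearGroup.toGL : Matrix.SpecialLinearGroup (Fin n) F →* GL (Fin n) F) := by
  classical
  have hζr : ζ ^ r = 1 := by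
    rw [← hζ]
    exact pow_orderOf_eq_one ζ
  have hζ0 : ζ ≠ 0 := by
    rintro rfl
    rw [zero_pow hr.out.ne_zero] at hζr
    exact zero_ne_one hζr
  let d : Fin n → F := fun j => μ⁻¹ * zp ζ (a j)
  have hD : (Matrix.diagonal d).det = 1 := by
    rw [Matrix.det_diagonal, Finset.prod_mul_distrib, ← zp_sum hζr, ← hdet]
    simp only [Finset.prod_const, Finset.card_univ, Fintype.card_fin]
    rw [inv_pow, inv_mul_cancel₀ (pow_ne_zero _ hμ)]
  let x : Matrix.SpecialLinearGroup (Fin n) F := ⟨Matrix.diagonal d, hD⟩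
  refine ⟨x, ⟨(μ⁻¹) ^ r, ?_⟩, ?_, ?_⟩
  · have h1 : ((x ^ r : Matrix.SpecialLinearGroup (Fin n) F) : Matrix (Fin n) (Fin n) F) = (Matrix.diagonal d) ^ r := by
      rw [Matrix.SpecialLinearGroup.coe_pow]
    rw [h1, Matrix.diagonal_pow]
    ext i j
    by_cases hij : i = j
    · subst hij
      simp [d, mul_pow, zp_pow_r hζr]
    · simp [Matrix.one_apply, hij]
  · intro z hz
    have h1 := congrFun (congrFun hz j₁) j₁
    have h2 := congrFun (congrFun hz j₂) j₂
    simp only [x, Matrix.diagonal_apply_eq, Matrix.smul_apply, Matrix.one_apply_eq, smul_eq_mul, mul_one, d] at h1 h2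
    rw [← h2] at h1
    exact hj (zp_inj hζ (mul_left_cancel₀ (inv_ne_zero hμ) h1))
  · intro P hP
    obtain ⟨c, hc, hcoef⟩ := coeff_of_conj F₀ x P hP
    apply hno
    have h1 : c⁻¹ • (x : Matrix (Fin n) (Fin n) F) = Matrix.diagonal (fun j => (c⁻¹ * μ⁻¹) * zp ζ (a j)) := by
      ext i j
      by_cases hij : i = j
      · subst hij
        simp [x, d, mul_assoc]
      · simp [x, hij]
    rw [h1, Matrix.charpoly_diagonal] at hcoef
    exact inv_of_coeff p F₀ hs hζ (mul_ne_zero (inv_ne_zero hc) (inv_ne_zero hμ)) hn a hcoef hrp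

end diag

section block

variable {F : Type u} [Field F] [Fintype F] (p : ℕ) [hp : Fact p.Prime] [CharP F p]
variable {r : ℕ} [hr : Fact r.Prime]

/-- Scaling the characteristic polynomial. -/
theorem aeval_scale {K : Type*} [Field K] [Algebra F K] {n : ℕ} (M : Matrix (Fin n) (Fin n) F) {c : F} (hc : c ≠ 0) (y : K) :
    aeval y (c⁻¹ • M).charpoly = ((algebraMap F K c)⁻¹) ^ n * aeval (algebraMap F K c * y) M.charpoly := by
  have hc' : algebraMap F K c ≠ 0 := (_root_.map_ne_zero _).mpr hc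
  have e : ∀ (A : Matrix (Fin n) (Fin n) F) (w : K), aeval w A.charpoly =
      ((Matrix.scalar (Fin n) w) - A.map (algebraMap F K)).det := by
    intro A w
    rw [← Matrix.eval_charpoly, Matrix.charpoly_map, eval_map_algebraMap]
  rw [e, e]
  have h1 : (Matrix.scalar (Fin n) y) - (c⁻¹ • M).map (algebraMap F K) =
      (algebraMap F K c)⁻¹ • ((Matrix.scalar (Fin n) (algebraMap F K c * y)) - M.map (algebraMap F K)) := by
    ext i j
    by_cases hij : i = j
    · subst hij
      simp only [Matrix.sub_apply, Matrix.scalar_apply, Matrix.diagonal_apply_eq, Matrix.map_apply, Matrix.smul_apply,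
        smul_eq_mul]
      rw [map_mul, map_inv₀]
      field_simp
    · simp [Matrix.scalar_apply, Matrix.diagonal_apply_ne _ hij, Matrix.map_apply]
  rw [h1, Matrix.det_smul, Fintype.card_fin]

/-- Frobenius powers of roots. -/
theorem aeval_pow_of_fixed {K : Type*} [Field K] [Algebra F K] (g : F[X]) (e : ℕ)
    (hg : ∀ i, (g.coeff i) ^ p ^ e = g.coeff i) (y : K) :
    aeval (y ^ p ^ e) g = (aeval y g) ^ p ^ e := by
  haveI : CharP K p := charP_of_injective_algebraMap (algebraMap F K).injective p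
  have h1 : g.map (iterateFrobenius F p e) = g := by
    ext i
    rw [coeff_map, iterateFrobenius_def, hg]
  have h2 := Polynomial.hom_eval₂ g (algebraMap F K) (iterateFrobenius K p e) y
  rw [iterateFrobenius_def] at h2
  have h3 : (iterateFrobenius K p e).comp (algebraMap F K) = (algebraMap F K).comp (iterateFrobenius F p e) := by
    ext t
    simp [iterateFrobenius_def]
  rw [h3, ← Polynomial.eval₂_map, h1, iterateFrobenius_def] at h2
  rw [aeval_def, aeval_def]
  exact h2.symm

theorem pow_eq_zero_iff_of_pos' {K : Type*} [Field K] {w : K} {m : ℕ} (h : w ^ m = 0) : w = 0 :=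
  eq_zero_of_pow_eq_zero h

include p in
/-- The roots of an irreducible factor of a cyclotomic polynomial are the Frobenius conjugates. -/
theorem root_orbit {K : Type*} [Field K] [Algebra F K] {q i : ℕ} (hq : Fintype.card F = q) (π : F[X]) (hπm : π.Monic)
    (hπdeg : π.natDegree = i) (hi : i = orderOf (q : ZMod r)) (θ : K) (hθord : orderOf θ = r)
    (hθπ : aeval θ π = 0) (Q₀ : ℕ) (hrootθ : aeval (θ ^ Q₀) π = 0) :
    ∃ t : ℕ, ((q ^ t : ℕ) : ZMod r) = (Q₀ : ZMod r) := by
  classical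
  have hrpr : r.Prime := hr.out
  have hθfin : IsOfFinOrder θ := by
    rw [← orderOf_pos_iff, hθord]
    exact hrpr.pos
  obtain ⟨f, -, hqf⟩ := FiniteField.card F p
  have hqp : q = p ^ (f : ℕ) := by rw [← hq, hqf]
  have hFrob : ∀ t : ℕ, aeval (θ ^ q ^ t) π = 0 := by
    intro t
    have e : q ^ t = p ^ ((f : ℕ) * t) := by rw [hqp, pow_mul]
    rw [e, aeval_pow_of_fixed p π ((f : ℕ) * t) (fun l => by
      rw [← e, ← hq]
      exact FiniteField.pow_card_pow t _), hθπ, zero_pow (pow_ne_zero _ hp.out.ne_zero)]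
  set πK : K[X] := π.map (algebraMap F K) with hπK'
  have hπK0 : πK ≠ 0 := (hπm.map _).ne_zero
  have hroots : ∀ w : K, aeval w π = 0 → w ∈ πK.roots.toFinset := by
    intro w hw
    rw [Multiset.mem_toFinset, mem_roots hπK0, IsRoot, hπK', eval_map_algebraMap]
    exact hw
  let S : Finset K := (Finset.range i).image (fun t => θ ^ q ^ t)
  have hinj : Set.InjOn (fun t => θ ^ q ^ t) (Finset.range i : Set ℕ) := by
    intro t ht u hu h
    have h1 : q ^ t ≡ q ^ u [MOD orderOf θ] := hθfin.pow_eq_pow_iff_modEq.mp h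
    rw [hθord, ← ZMod.natCast_eq_natCast_iff] at h1
    push_cast at h1
    have hti : t < orderOf (q : ZMod r) := by
      rw [← hi]
      simpa using ht
    have hui : u < orderOf (q : ZMod r) := by
      rw [← hi]
      simpa using hu
    exact pow_injOn_Iio_orderOf hti hui h1
  have hScard : S.card = i := by
    rw [Finset.card_image_of_injOn hinj, Finset.card_range]
  have hSsub : S ⊆ πK.roots.toFinset := by
    intro w hw
    obtain ⟨t, -, rfl⟩ := Finset.mem_image.mp hw
    exact hroots _ (hFrob t)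
  have hcardle : πK.roots.toFinset.card ≤ S.card := by
    rw [hScard]
    calc πK.roots.toFinset.card ≤ πK.roots.card := Multiset.toFinset_card_le _
      _ ≤ πK.natDegree := card_roots' _
      _ = i := by rw [hπK', natDegree_map, hπdeg]
  have hSeq := Finset.eq_of_subset_of_card_le hSsub hcardle
  have hmem : θ ^ Q₀ ∈ S := by
    rw [hSeq]
    exact hroots _ hrootθ
  obtain ⟨t, -, ht⟩ := Finset.mem_image.mp hmem
  have h1 : q ^ t ≡ Q₀ [MOD orderOf θ] := hθfin.pow_eq_pow_iff_modEq.mp ht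
  rw [hθord, ← ZMod.natCast_eq_natCast_iff] at h1
  exact ⟨t, h1⟩

set_option maxHeartbeats 2000000 in
/-- A block element, outside the conjugates of the subfield subgroup. -/
theorem exists_block (F₀ : Subfield F) {s : ℕ} (hs : Nat.card F₀ = p ^ s) {q n j : ℕ} (hq : Fintype.card F = q)
    (hrp : r ≠ p) (hQ : (q : ZMod r) ≠ 1) (hj1 : 1 ≤ j) (hjn : j ≤ n) (hQj : (q : ZMod r) ^ j = 1)
    (hQ₀j : ((p ^ s : ℕ) : ZMod r) ^ j ≠ 1) :
    ∃ x : Matrix.SpecialLinearGroup (Fin n) F,
      (∃ z : F, ((x ^ r : Matrix.SpecialLinearGroup (Fin n) F) : Matrix (Fin n) (Fin n) F) = z • (1 : Matrix (Fin n) (Fin n) F)) ∧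
      (∀ z : F, (x : Matrix (Fin n) (Fin n) F) ≠ z • (1 : Matrix (Fin n) (Fin n) F)) ∧
      ∀ P : Matrix.SpecialLinearGroup (Fin n) F, P⁻¹ * x * P ∉ (Cfsg.Geo.subfieldSubgroup F₀ 1).comap
        (Matrix.SpecialLinearGroup.toGL : Matrix.SpecialLinearGroup (Fin n) F →* GL (Fin n) F) := by
  classical
  have hrpr : r.Prime := hr.out
  have hrF : (r : F) ≠ 0 := by
    rw [Ne, CharP.cast_eq_zero_iff F p]
    intro h
    exact hrp ((Nat.prime_dvd_prime_iff_eq hp.out hrpr).mp h).symm
  -- an irreducible factor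
  set Φ₀ : F[X] := ∑ l ∈ Finset.range r, (X : F[X]) ^ l with hΦ₀
  have hΦmul : (X - 1) * Φ₀ = X ^ r - 1 := mul_geom_sum X r
  have hΦ1 : Φ₀.eval 1 = (r : F) := by
    simp [hΦ₀, eval_finsetSum]
  have hΦdeg : ¬ IsUnit Φ₀ := by
    intro h
    have h1 := Polynomial.natDegree_eq_zero_of_isUnit h
    have h2 : (X ^ r - 1 : F[X]).natDegree = r := natDegree_X_pow_sub_C (n := r) (r := (1 : F)) |> fun t => by simpa using t
    rw [← hΦmul, natDegree_mul (X_sub_C_ne_zero (1 : F) |> fun t => by simpa using t)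
      (by
        intro h0
        rw [h0] at hΦ1
        simp at hΦ1
        exact hrF hΦ1.symm), h1, add_zero] at h2
    have h3 : (X - 1 : F[X]).natDegree = 1 := by
      have := natDegree_X_sub_C (1 : F)
      simpa using this
    rw [h3] at h2
    exact hrpr.one_lt.ne h2
  obtain ⟨π, hπm, hπ, hπd⟩ := Polynomial.exists_monic_irreducible_factor _ hΦdeg
  have hπr : π ∣ (X ^ r - 1 : F[X]) := by
    rw [← hΦmul]
    exact hπd.trans (dvd_mul_left _ _)
  have hπ1 : π ≠ X - 1 := by
    rintro rfl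
    have h1 : eval 1 Φ₀ = 0 := by
      obtain ⟨g, hg⟩ := hπd
      rw [hg, eval_mul]
      simp
    rw [hΦ1] at h1
    exact hrF h1
  have hπdeg := Cfsg.Agent.Lib.MatConj.CycloFactors.deg_factor (p := p) hq r hrpr hrp π hπ hπm hπr hπ1
  set i := orderOf (q : ZMod r) with hi
  have hidvd : i ∣ j := orderOf_dvd_of_pow_eq_one hQj
  have hile : i ≤ n := (Nat.le_of_dvd hj1 hidvd).trans hjn
  have hi2 : 2 ≤ i := by
    have h0 : 0 < i := orderOf_pos_iff.mpr (isOfFinOrder_iff_pow_eq_one.mpr ⟨j, hj1, hQj⟩)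
    have h1 : i ≠ 1 := by
      intro h
      exact hQ (orderOf_eq_one_iff.mp h)
    omega
  -- the endomorphism
  let R : Fin (n - i + 1) → F[X] := Fin.cons π (fun _ => X - 1)
  have hR0 : R 0 = π := rfl
  have hRs : ∀ l : Fin (n - i), R l.succ = X - 1 := fun l => rfl
  have hX1irr : Irreducible (X - 1 : F[X]) := by
    have := irreducible_X_sub_C (1 : F)
    simpa using this
  have hX1m : (X - 1 : F[X]).Monic := by
    have := monic_X_sub_C (1 : F)
    simpa using this
  have hRi : ∀ k, Irreducible (R k) := by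
    intro k
    refine Fin.cases ?_ (fun l => ?_) k
    · exact hπ
    · rw [hRs]
      exact hX1irr
  have hRm : ∀ k, (R k).Monic := by
    intro k
    refine Fin.cases ?_ (fun l => ?_) k
    · exact hπm
    · rw [hRs]
      exact hX1m
  have hRr : ∀ k, R k ∣ (X ^ r - 1 : F[X]) := by
    intro k
    refine Fin.cases ?_ (fun l => ?_) k
    · exact hπr
    · rw [hRs, ← hΦmul]
      exact dvd_mul_right _ _
  have hX1deg : (X - 1 : F[X]).natDegree = 1 := by
    have := natDegree_X_sub_C (1 : F)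
    simpa using this
  have hsum : ∑ k, (R k).natDegree = finrank F (Fin n → F) := by
    rw [Fin.sum_univ_succ, Module.finrank_fin_fun, hR0, hπdeg]
    simp only [hRs, hX1deg]
    simp
    omega
  obtain ⟨T, Φ, hD⟩ := exists_ss (V := Fin n → F) R hRi hRm hsum
  have hχ : LinearMap.charpoly T = π * (X - 1) ^ (n - i) := by
    rw [SSDecomp.charpoly hD, Fin.prod_univ_succ, hR0]
    simp [hRs]
  have hTr : T ^ r = 1 := by
    refine LinearMap.ext fun v => ?_
    apply Φ.injective
    funext k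
    have h1 := SSDecomp.comm_aeval hD (X ^ r - 1 : F[X]) v k
    have h2 : (AdjoinRoot.mk (R k)) (X ^ r - 1 : F[X]) = 0 := AdjoinRoot.mk_eq_zero.mpr (hRr k)
    rw [h2, zero_mul] at h1
    simp only [map_sub, map_pow, aeval_X, map_one, LinearMap.sub_apply, Module.End.one_apply, Pi.sub_apply] at h1
    have h3 := sub_eq_zero.mp h1
    simpa using h3
  let A : Matrix (Fin n) (Fin n) F := LinearMap.toMatrix' T
  have hAl : Matrix.toLin' A = T := Matrix.toLin'_toMatrix' T
  have hAr : A ^ r = 1 := by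
    apply Matrix.toLin'.injective
    rw [Matrix.toLin'_pow, hAl, hTr, Matrix.toLin'_one]
    rfl
  have hAχ : A.charpoly = π * (X - 1) ^ (n - i) := by
    rw [← Matrix.charpoly_toLin', hAl, hχ]
  -- the torsion of `F`
  have htors : ∀ y : F, y ^ r = 1 → y = 1 := by
    intro y hy
    have hy0 : y ≠ 0 := by
      rintro rfl
      rw [zero_pow hrpr.ne_zero] at hy
      exact zero_ne_one hy
    have hq1 := FiniteField.pow_card_sub_one_eq_one y hy0
    have hnd : ¬ r ∣ q - 1 := by
      intro h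
      apply hQ
      have h1 : 1 ≤ q := by
        rw [← hq]
        exact Fintype.card_pos
      have h2 : ((q - 1 : ℕ) : ZMod r) = 0 := (ZMod.natCast_eq_zero_iff _ _).mpr h
      rw [Nat.cast_sub h1, sub_eq_zero] at h2
      simpa using h2
    have hcop : Nat.Coprime r (q - 1) := (Nat.Prime.coprime_iff_not_dvd hrpr).mpr hnd
    have h3 : y ^ Nat.gcd r (q - 1) = 1 := pow_gcd_eq_one.mpr ⟨hy, by rw [← hq]; exact hq1⟩
    rwa [hcop.gcd_eq_one, pow_one] at h3
  have hAdet : A.det = 1 := by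
    apply htors
    rw [← Matrix.det_pow, hAr, Matrix.det_one]
  let x : Matrix.SpecialLinearGroup (Fin n) F := ⟨A, hAdet⟩
  have hxr : ((x ^ r : Matrix.SpecialLinearGroup (Fin n) F) : Matrix (Fin n) (Fin n) F) = 1 := by
    rw [Matrix.SpecialLinearGroup.coe_pow]
    exact hAr
  refine ⟨x, ⟨1, by rw [hxr, one_smul]⟩, ?_, ?_⟩
  · intro z hz
    have h1 : aeval A (X - C z) = 0 := by
      have hz' : A = z • 1 := hz
      simp only [map_sub, aeval_X, aeval_C]
      rw [hz']
      simp [Algebra.algebraMap_eq_smul_one]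
    have h2 : π ∣ A.charpoly := by
      rw [hAχ]
      exact dvd_mul_right _ _
    have h3 := Cfsg.Agent.Lib.PGBC.Poly.dvd_of_annih A hπ h2 h1
    have h4 := natDegree_le_of_dvd h3 (X_sub_C_ne_zero z)
    rw [natDegree_X_sub_C, hπdeg] at h4
    omega
  · intro P hP
    obtain ⟨c, hc, hcoef⟩ := coeff_of_conj F₀ x P hP
    haveI : Fact (Irreducible π) := ⟨hπ⟩
    let K := AdjoinRoot π
    let θ : K := AdjoinRoot.root π
    have hθπ : aeval θ π = 0 := by
      rw [AdjoinRoot.aeval_eq, AdjoinRoot.mk_self]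
    have hθr : θ ^ r = 1 := by
      have h1 : aeval θ (X ^ r - 1 : F[X]) = 0 := by
        obtain ⟨g, hg⟩ := hπr
        rw [hg, map_mul, hθπ, zero_mul]
      simpa [sub_eq_zero] using h1
    have hθ1 : θ ≠ 1 := by
      intro h
      apply hπ1
      have h0 : AdjoinRoot.mk π (X - 1) = 0 := by
        rw [map_sub, AdjoinRoot.mk_X, map_one]
        exact sub_eq_zero.mpr h
      have h3 : π ∣ X - 1 := AdjoinRoot.mk_eq_zero.mp h0
      exact Polynomial.eq_of_monic_of_associated hπm hX1m (hπ.associated_of_dvd hX1irr h3)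
    have hθord : orderOf θ = r := orderOf_eq_prime hθr hθ1
    have hθ0 : θ ≠ 0 := by
      rintro h
      rw [h, zero_pow hrpr.ne_zero] at hθr
      exact zero_ne_one hθr
    set Q₀ := p ^ s with hQ₀
    have hQ₀0 : Q₀ ≠ 0 := pow_ne_zero _ hp.out.ne_zero
    let ι : F →+* K := algebraMap F K
    have hιc : ι c ≠ 0 := (_root_.map_ne_zero ι).mpr hc
    set g₁ : F[X] := (c⁻¹ • A).charpoly with hg₁
    have hgfix : ∀ l, (g₁.coeff l) ^ p ^ s = g₁.coeff l := by
      intro l
      rw [← hQ₀, ← hs]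
      exact Cfsg.Agent.Lib.Classical.SL2.SubLat.pow_card_of_mem (hcoef l)
    have hroot : ∀ w : K, aeval w A.charpoly = aeval w π * (w - 1) ^ (n - i) := by
      intro w
      rw [hAχ, map_mul, map_pow, map_sub, aeval_X, map_one]
    have hy : aeval ((ι c)⁻¹ * θ) g₁ = 0 := by
      rw [hg₁, aeval_scale A hc]
      show _ * aeval (ι c * ((ι c)⁻¹ * θ)) A.charpoly = 0
      rw [mul_inv_cancel_left₀ hιc, hroot, hθπ, zero_mul, mul_zero]
    have hy2 : aeval (((ι c)⁻¹ * θ) ^ p ^ s) g₁ = 0 := by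
      rw [aeval_pow_of_fixed p g₁ s hgfix, hy, zero_pow hQ₀0]
    set ν : F := c * (c⁻¹) ^ Q₀ with hν
    set θ' : K := ι c * ((ι c)⁻¹ * θ) ^ p ^ s with hθ'
    have hθ'eq : θ' = ι ν * θ ^ Q₀ := by
      rw [hθ', mul_pow, hν, map_mul, map_pow, map_inv₀, mul_assoc]
    have hroot' : aeval θ' A.charpoly = 0 := by
      rw [hg₁, aeval_scale A hc] at hy2
      have h1 := (mul_eq_zero.mp hy2).resolve_left (pow_ne_zero _ (inv_ne_zero hιc))
      exact h1
    have hdich : aeval θ' π = 0 ∨ θ' = 1 := by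
      rw [hroot θ'] at hroot'
      rcases mul_eq_zero.mp hroot' with h | h
      · exact Or.inl h
      · exact Or.inr (sub_eq_zero.mp (pow_eq_zero_iff_of_pos' h))
    have hπK : ∀ w : K, aeval w π = 0 → w ^ r = 1 := by
      intro w hw
      obtain ⟨g, hg⟩ := hπr
      have h1 : aeval w (X ^ r - 1 : F[X]) = 0 := by
        rw [hg, map_mul, hw, zero_mul]
      simpa [sub_eq_zero] using h1
    have hθ'r : θ' ^ r = 1 := by
      rcases hdich with h | h
      · exact hπK _ h
      · rw [h, one_pow]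
    have hνr : ν ^ r = 1 := by
      rw [hθ'eq, mul_pow, ← pow_mul, mul_comm Q₀, pow_mul, hθr, one_pow, mul_one, ← map_pow] at hθ'r
      apply ι.injective
      rw [hθ'r, map_one]
    have hν1 : ν = 1 := htors ν hνr
    have hθ'2 : θ' = θ ^ Q₀ := by
      rw [hθ'eq, hν1, map_one, one_mul]
    have hθQ : θ ^ Q₀ ≠ 1 := by
      intro h
      have h1 := orderOf_dvd_of_pow_eq_one h
      rw [hθord, hQ₀] at h1
      exact hrp ((Nat.prime_dvd_prime_iff_eq hrpr hp.out).mp (hrpr.dvd_of_dvd_pow h1))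
    have hrootθ : aeval (θ ^ Q₀) π = 0 := by
      rcases hdich with h | h
      · rwa [hθ'2] at h
      · exact absurd (hθ'2 ▸ h) hθQ
    obtain ⟨t, h1⟩ := root_orbit (F := F) (K := K) p hq π hπm hπdeg rfl θ hθord hθπ Q₀ hrootθ
    apply hQ₀j
    rw [← h1]
    push_cast
    rw [← pow_mul, mul_comm, pow_mul, hQj, one_pow]

end block

end Cfsg.Agent.Lib.ElusSub.Neg
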