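import Cfsg.Agent.Lib.ElusSub.Neg

/-!
# The negative direction
-/

set_option autoImplicit false
set_option linter.unusedSectionVars false
set_option linter.unusedVariables false
set_option linter.style.haveILetI false

namespace Cfsg.Agent.Lib.ElusSub.NegMain

open Polynomial Module Matrix Cfsg.Agent.Lib.ElusSub.Basic Cfsg.Agent.Lib.ElusSub.Neg
open Cfsg.Agent.Lib.ElusSub.Index

section combi

variable {r : ℕ} [hr : Fact r.Prime]

theorem no_inv_two {n s : ℕ} (h : s + 1 ≤ n) {b₁ b₃ : ZMod r} (hb : b₁ ≠ b₃) (h1 : s + 1 ≠ n - 1 - s)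
    (h2 : n - 1 - s ≠ 0) {θ : ZMod r} (hθ : θ ≠ 1) :
    ¬ ∃ t : ZMod r, ∀ b, mul' (pat b₁ b₁ b₃ s : Fin n → ZMod r) (θ * b + t) = mul' (pat b₁ b₁ b₃ s : Fin n → ZMod r) b := by
  have e : ∀ b, mul' (pat b₁ b₁ b₃ s : Fin n → ZMod r) b =
      (if b₁ = b then 1 else 0) + s * (if b₁ = b then 1 else 0) + (n - 1 - s) * (if b₃ = b then 1 else 0) :=
    fun b => mul'_pat _ _ _ h b
  have m1 : mul' (pat b₁ b₁ b₃ s : Fin n → ZMod r) b₁ = s + 1 := by
    rw [e, if_pos rfl, if_neg hb.symm]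
    omega
  have m3 : mul' (pat b₁ b₁ b₃ s : Fin n → ZMod r) b₃ = n - 1 - s := by
    rw [e, if_neg hb, if_pos rfl]
    omega
  have m0 : ∀ b, b₁ ≠ b → b₃ ≠ b → mul' (pat b₁ b₁ b₃ s : Fin n → ZMod r) b = 0 := by
    intro b h1 h3
    rw [e, if_neg h1, if_neg h3]
    omega
  apply no_inv _ hθ hb
  · intro b hb'
    by_contra hne
    have hne' : b₁ ≠ b := fun h => hne h.symm
    rw [m1] at hb'
    by_cases hb3 : b₃ = b
    · subst hb3
      rw [m3] at hb'
      omega
    · rw [m0 b hne' hb3] at hb'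
      omega
  · intro b hb'
    by_contra hne
    have hne' : b₃ ≠ b := fun h => hne h.symm
    rw [m3] at hb'
    by_cases hb3 : b₁ = b
    · subst hb3
      rw [m1] at hb'
      omega
    · rw [m0 b hb3 hne'] at hb'
      omega

theorem no_inv_three {n : ℕ} (h6 : 6 ≤ n) (hr5 : 5 ≤ r) {θ : ZMod r} (hθ : θ ≠ 1) :
    ¬ ∃ t : ZMod r, ∀ b, mul' (pat (-2) 1 0 2 : Fin n → ZMod r) (θ * b + t) = mul' (pat (-2) 1 0 2 : Fin n → ZMod r) b := by
  have e : ∀ b, mul' (pat (-2) 1 0 2 : Fin n → ZMod r) b =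
      (if (-2 : ZMod r) = b then 1 else 0) + 2 * (if (1 : ZMod r) = b then 1 else 0) + (n - 1 - 2) * (if (0 : ZMod r) = b then 1 else 0) :=
    fun b => mul'_pat _ _ _ (by omega) b
  have h21 : (-2 : ZMod r) ≠ 1 := by
    intro h
    have h1 : ((3 : ℕ) : ZMod r) = 0 := by
      push_cast
      linear_combination -h
    rw [ZMod.natCast_eq_zero_iff] at h1
    have := Nat.le_of_dvd (by norm_num) h1
    omega
  have h20 : (-2 : ZMod r) ≠ 0 := by
    intro h
    have h1 : ((2 : ℕ) : ZMod r) = 0 := by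
      push_cast
      linear_combination -h
    rw [ZMod.natCast_eq_zero_iff] at h1
    have := Nat.le_of_dvd (by norm_num) h1
    omega
  have h10 : (1 : ZMod r) ≠ 0 := one_ne_zero
  have m1 : mul' (pat (-2) 1 0 2 : Fin n → ZMod r) (-2) = 1 := by
    rw [e, if_pos rfl, if_neg h21.symm, if_neg h20.symm]
    omega
  have m2 : mul' (pat (-2) 1 0 2 : Fin n → ZMod r) 1 = 2 := by
    rw [e, if_neg h21, if_pos rfl, if_neg h10.symm]
    omega
  have m3 : mul' (pat (-2) 1 0 2 : Fin n → ZMod r) 0 = n - 3 := by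
    rw [e, if_neg h20, if_neg h10, if_pos rfl]
    omega
  have m0 : ∀ b, (-2 : ZMod r) ≠ b → (1 : ZMod r) ≠ b → (0 : ZMod r) ≠ b → mul' (pat (-2) 1 0 2 : Fin n → ZMod r) b = 0 := by
    intro b h1 h2 h3
    rw [e, if_neg h1, if_neg h2, if_neg h3]
    omega
  apply no_inv _ hθ h21
  · intro b hb'
    by_contra hne
    have hne' : (-2 : ZMod r) ≠ b := fun h => hne h.symm
    rw [m1] at hb'
    by_cases hb1 : (1 : ZMod r) = b
    · subst hb1
      rw [m2] at hb'
      omega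
    · by_cases hb0 : (0 : ZMod r) = b
      · subst hb0
        rw [m3] at hb'
        omega
      · rw [m0 b hne' hb1 hb0] at hb'
        omega
  · intro b hb'
    by_contra hne
    have hne' : (1 : ZMod r) ≠ b := fun h => hne h.symm
    rw [m2] at hb'
    by_cases hb1 : (-2 : ZMod r) = b
    · subst hb1
      rw [m1] at hb'
      omega
    · by_cases hb0 : (0 : ZMod r) = b
      · subst hb0
        rw [m3] at hb'
        omega
      · rw [m0 b hb1 hne' hb0] at hb'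
        omega

theorem no_inv_pair (hr2 : r ≠ 2) {θ : ZMod r} (hθ : θ ≠ 1) (hθ0 : θ ≠ 0) (hθ2 : θ ^ 2 ≠ 1) :
    ¬ ∃ t : ZMod r, ∀ b, mul' (pat 1 1 (-1) 0 : Fin 2 → ZMod r) (θ * b + t) = mul' (pat 1 1 (-1) 0 : Fin 2 → ZMod r) b := by
  have e : ∀ b, mul' (pat 1 1 (-1) 0 : Fin 2 → ZMod r) b =
      (if (1 : ZMod r) = b then 1 else 0) + 0 * (if (1 : ZMod r) = b then 1 else 0) + (2 - 1 - 0) * (if (-1 : ZMod r) = b then 1 else 0) :=
    fun b => mul'_pat _ _ _ (by omega) b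
  have h2 : (2 : ZMod r) ≠ 0 := by
    intro h
    have h1 : ((2 : ℕ) : ZMod r) = 0 := by
      push_cast
      exact h
    rw [ZMod.natCast_eq_zero_iff] at h1
    exact hr2 ((Nat.prime_dvd_prime_iff_eq hr.out Nat.prime_two).mp h1)
  have h1m : (1 : ZMod r) ≠ -1 := by
    intro h
    apply h2
    linear_combination h
  rintro ⟨t, ht⟩
  have m1 : mul' (pat 1 1 (-1) 0 : Fin 2 → ZMod r) 1 = 1 := by
    rw [e, if_pos rfl, if_neg h1m.symm]
  have m2 : mul' (pat 1 1 (-1) 0 : Fin 2 → ZMod r) (-1) = 1 := by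
    rw [e, if_neg h1m, if_pos rfl]
  have m0 : ∀ b, (1 : ZMod r) ≠ b → (-1 : ZMod r) ≠ b → mul' (pat 1 1 (-1) 0 : Fin 2 → ZMod r) b = 0 := by
    intro b h1 h3
    rw [e, if_neg h1, if_neg h3]
  have key : ∀ c : ZMod r, (1 = c ∨ -1 = c) → (1 = θ * c + t ∨ -1 = θ * c + t) := by
    intro c hc
    have h3 := ht c
    by_contra hcon
    push Not at hcon
    rw [m0 _ hcon.1 hcon.2] at h3
    rcases hc with rfl | rfl
    · rw [m1] at h3
      omega
    · rw [m2] at h3
      omega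
  have h1 := key 1 (Or.inl rfl)
  have h2' := key (-1) (Or.inr rfl)
  rcases h1 with h1 | h1 <;> rcases h2' with h2' | h2'
  · apply hθ0
    have : 2 * θ = 0 := by linear_combination h2' - h1
    exact (mul_eq_zero.mp this).resolve_left h2
  · apply hθ
    have : 2 * θ = 2 * 1 := by linear_combination h2' - h1
    exact mul_left_cancel₀ h2 this
  · apply hθ2
    have : 2 * θ = 2 * (-1) := by linear_combination h2' - h1
    have h3 := mul_left_cancel₀ h2 this
    rw [h3]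
    ring
  · apply hθ0
    have : 2 * θ = 0 := by linear_combination h2' - h1
    exact (mul_eq_zero.mp this).resolve_left h2

end combi

section main

variable {F : Type*} [Field F] [Fintype F] (p : ℕ) [hp : Fact p.Prime] [CharP F p]
variable {r : ℕ} [hr : Fact r.Prime]

/-- Existence of a root of unity. -/
theorem exists_order {q : ℕ} (hq : Fintype.card F = q) {d : ℕ} (hd : d ∣ q - 1) : ∃ ζ : F, ζ ≠ 0 ∧ orderOf ζ = d := by
  classical
  obtain ⟨g, hg⟩ := IsCyclic.exists_ofOrder_eq_natCard (α := Fˣ)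
  have hcard : Nat.card Fˣ = q - 1 := by
    rw [Nat.card_eq_fintype_card, Fintype.card_units, hq]
  rw [hcard] at hg
  have hq1 : 0 < q - 1 := by
    have : 1 < Fintype.card F := Fintype.one_lt_card
    omega
  have hd0 : 0 < d := Nat.pos_of_dvd_of_pos hd hq1
  obtain ⟨e, he⟩ := hd
  have he0 : 0 < e := by
    rcases Nat.eq_zero_or_pos e with rfl | h
    · omega
    · exact h
  refine ⟨((g ^ e : Fˣ) : F), Units.ne_zero _, ?_⟩
  rw [orderOf_units]
  have : orderOf (g ^ e) = d := by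
    rw [orderOf_pow_of_dvd he0.ne' (by rw [hg, he]; exact dvd_mul_left _ _), hg, he]
    exact Nat.mul_div_cancel _ he0
  exact this

/-- Diagonal element without the non-constancy hypothesis. -/
theorem exists_diag' (F₀ : Subfield F) {s : ℕ} (hs : Nat.card F₀ = p ^ s) {ζ μ : F} (hζ : orderOf ζ = r) (hμ : μ ≠ 0)
    {n : ℕ} (hn : 1 ≤ n) (a : Fin n → ZMod r) (hrp : r ≠ p) (hdet : μ ^ n = zp ζ (∑ j, a j))
    (hno : ¬ ∃ t : ZMod r, ∀ b, mul' a (((p ^ s : ℕ) : ZMod r) * b + t) = mul' a b) :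
    ∃ x : Matrix.SpecialLinearGroup (Fin n) F,
      (∃ z : F, ((x ^ r : Matrix.SpecialLinearGroup (Fin n) F) : Matrix (Fin n) (Fin n) F) = z • (1 : Matrix (Fin n) (Fin n) F)) ∧
      (∀ z : F, (x : Matrix (Fin n) (Fin n) F) ≠ z • (1 : Matrix (Fin n) (Fin n) F)) ∧
      ∀ P : Matrix.SpecialLinearGroup (Fin n) F, P⁻¹ * x * P ∉ (Cfsg.Geo.subfieldSubgroup F₀ 1).comap
        (Matrix.SpecialLinearGroup.toGL : Matrix.SpecialLinearGroup (Fin n) F →* GL (Fin n) F) := by
  classical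
  have hθ0 : ((p ^ s : ℕ) : ZMod r) ≠ 0 := by
    rw [Ne, ZMod.natCast_eq_zero_iff]
    intro h
    exact hrp ((Nat.prime_dvd_prime_iff_eq hr.out hp.out).mp (hr.out.dvd_of_dvd_pow h))
  by_cases hconst : ∃ j₁ j₂, a j₁ ≠ a j₂
  · obtain ⟨j₁, j₂, hj⟩ := hconst
    exact exists_diag p F₀ hs hζ hμ hn a hrp hdet hj hno
  · exfalso
    push Not at hconst
    apply hno
    set j₀ : Fin n := ⟨0, hn⟩ with hj₀
    set θ : ZMod r := ((p ^ s : ℕ) : ZMod r) with hθ
    refine ⟨a j₀ - θ * a j₀, fun b => ?_⟩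
    rw [mul'_eq_sum, mul'_eq_sum]
    refine Finset.sum_congr rfl fun j _ => ?_
    have h1 : a j = a j₀ := hconst j j₀
    rw [h1]
    by_cases hb : a j₀ = b
    · subst hb
      simp
    · have h2 : a j₀ ≠ θ * b + (a j₀ - θ * a j₀) := by
        intro h
        apply hb
        have h3 : θ * (a j₀ - b) = 0 := by linear_combination h
        have h4 := (mul_eq_zero.mp h3).resolve_left hθ0
        exact sub_eq_zero.mp h4
      simp [hb, h2]

/-- The negative direction. -/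
theorem neg_case (F₀ : Subfield F) {s : ℕ} (hs : Nat.card F₀ = p ^ s) {q n k : ℕ} (hq : Fintype.card F = q)
    (hn : 2 ≤ n) (hk : k.Prime) (hqk : q = (p ^ s) ^ k) (hr2 : r ≠ 2) (hrp : r ≠ p) (hgap : ¬ (n = 6 ∧ r = 3))
    (hrk : r ≠ k) (hexc : ¬ (k = 2 ∧ r = n ∧ (n = 3 ∨ n = 5) ∧ padicValNat r (p ^ s + 1) = 1))
    (hΩ : r ∣ ((Cfsg.Geo.subfieldSubgroup F₀ 1).comap (Matrix.SpecialLinearGroup.toGL : Matrix.SpecialLinearGroup (Fin n) F →* GL (Fin n) F)).index) :
    ∃ x : Matrix.SpecialLinearGroup (Fin n) F,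
      (∃ z : F, ((x ^ r : Matrix.SpecialLinearGroup (Fin n) F) : Matrix (Fin n) (Fin n) F) = z • (1 : Matrix (Fin n) (Fin n) F)) ∧
      (∀ z : F, (x : Matrix (Fin n) (Fin n) F) ≠ z • (1 : Matrix (Fin n) (Fin n) F)) ∧
      ∀ P : Matrix.SpecialLinearGroup (Fin n) F, P⁻¹ * x * P ∉ (Cfsg.Geo.subfieldSubgroup F₀ 1).comap
        (Matrix.SpecialLinearGroup.toGL : Matrix.SpecialLinearGroup (Fin n) F →* GL (Fin n) F) := by
  classical
  have hrpr : r.Prime := hr.out
  have hq₀cop : (p ^ s).Coprime r := Nat.Coprime.pow_left s ((Nat.coprime_primes hp.out hrpr).mpr hrp.symm)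
  obtain ⟨j, hj2, hjn, hjr⟩ := exists_of_dvd_index p F₀ hq hs hqk hk.one_le (by omega) hrpr hrp hq₀cop hΩ
  set θ : ZMod r := ((p ^ s : ℕ) : ZMod r) with hθ
  have hθ0 : θ ≠ 0 := by
    rw [hθ, Ne, ZMod.natCast_eq_zero_iff]
    intro h
    exact hrp ((Nat.prime_dvd_prime_iff_eq hrpr hp.out).mp (hrpr.dvd_of_dvd_pow h))
  -- the basic arithmetic
  have hgeo : ∑ l ∈ Finset.range k, (θ ^ j) ^ l = 0 := by
    have h1 := (ZMod.natCast_eq_zero_iff _ _).mpr hjr
    simpa [geo, hθ] using h1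
  have hyne : θ ^ j ≠ 1 := by
    intro h
    rw [h] at hgeo
    simp only [one_pow, Finset.sum_const, Finset.card_range, nsmul_eq_mul, mul_one] at hgeo
    rw [ZMod.natCast_eq_zero_iff] at hgeo
    exact hrk ((Nat.prime_dvd_prime_iff_eq hrpr hk).mp hgeo)
  have hyk : (θ ^ j) ^ k = 1 := by
    have h1 := mul_geom_sum (θ ^ j) k
    rw [hgeo, mul_zero] at h1
    exact (sub_eq_zero.mp h1.symm)
  have hQ : (q : ZMod r) = θ ^ k := by
    rw [hqk, hθ]
    push_cast
    rfl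
  have hQj : (q : ZMod r) ^ j = 1 := by
    rw [hQ, ← pow_mul, mul_comm, pow_mul, hyk]
  by_cases hQ1 : (q : ZMod r) = 1
  swap
  · exact exists_block p F₀ hs hq hrp hQ1 (by omega) hjn hQj hyne
  -- now `r ∣ q - 1`
  have hq1 : 1 ≤ q := by
    rw [← hq]
    exact Fintype.card_pos
  have hrq : r ∣ q - 1 := by
    rw [← ZMod.natCast_eq_zero_iff, Nat.cast_sub hq1, hQ1]
    simp
  obtain ⟨ζ, hζ0, hζ⟩ := exists_order hq hrq
  have hζr : ζ ^ r = 1 := by
    rw [← hζ]
    exact pow_orderOf_eq_one ζ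
  have hθ1 : θ ≠ 1 := by
    intro h
    apply hyne
    rw [h, one_pow]
  have hdet0 : ∀ a : Fin n → ZMod r, ∑ j, a j = 0 → (1 : F) ^ n = zp ζ (∑ j, a j) := by
    intro a ha
    rw [ha, zp_zero, one_pow]
  rcases Nat.lt_or_ge n 3 with hn3 | hn3
  · -- `n = 2`
    obtain rfl : n = 2 := by omega
    obtain rfl : j = 2 := by omega
    refine exists_diag' p F₀ hs hζ one_ne_zero (by omega) (pat 1 1 (-1) 0) hrp (hdet0 _ ?_) (no_inv_pair hr2 hθ1 hθ0 hyne)
    have := sum_pat (n := 2) (s := 0) (fun c : ZMod r => c) 1 1 (-1) (by omega)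
    beta_reduce at this
    rw [this]
    simp
  by_cases hrn : r ∣ n
  swap
  · -- `r ∤ n`
    have hne : (1 - (n : ZMod r)) ≠ 1 := by
      intro h
      apply hrn
      rw [← ZMod.natCast_eq_zero_iff]
      linear_combination -h
    refine exists_diag' p F₀ hs hζ one_ne_zero (by omega) (pat (1 - (n : ZMod r)) (1 - (n : ZMod r)) 1 0) hrp (hdet0 _ ?_)
      (no_inv_two (by omega) hne (by omega) (by omega) hθ1)
    have := sum_pat (n := n) (s := 0) (fun c : ZMod r => c) (1 - (n : ZMod r)) (1 - (n : ZMod r)) 1 (by omega)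
    beta_reduce at this
    rw [this]
    have h1 : ((n - 1 - 0 : ℕ) : ZMod r) = (n : ZMod r) - 1 := by
      rw [Nat.sub_zero, Nat.cast_sub (by omega)]
      simp
    simp only [zero_nsmul, nsmul_eq_mul, mul_one, add_zero, h1]
    ring
  -- `r ∣ n`
  have hn0 : (n : ZMod r) = 0 := (ZMod.natCast_eq_zero_iff _ _).mpr hrn
  have hrle : r ≤ n := Nat.le_of_dvd (by omega) hrn
  have hr1 : 1 ≤ r := hrpr.one_lt.le
  have hr3 : 3 ≤ r := by
    have := hrpr.two_le
    omega
  by_cases hnr2 : n ≠ r ∧ n ≠ 2 * r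
  · -- two values
    refine exists_diag' p F₀ hs hζ one_ne_zero (by omega) (pat 0 0 1 (r - 1)) hrp (hdet0 _ ?_)
      (no_inv_two (by omega) zero_ne_one ?_ ?_ hθ1)
    · have := sum_pat (n := n) (s := r - 1) (fun c : ZMod r => c) 0 0 1 (by omega)
      beta_reduce at this
      rw [this]
      have h1 : ((n - 1 - (r - 1) : ℕ) : ZMod r) = 0 := by
        have e : n - 1 - (r - 1) = n - r := by omega
        rw [e, Nat.cast_sub hrle, hn0]
        simp
      simp [h1]
    · obtain ⟨h1, h2⟩ := hnr2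
      omega
    · obtain ⟨h1, h2⟩ := hnr2
      omega
  have hnr3 : n = r ∨ n = 2 * r := by
    by_contra h
    push Not at h
    exact hnr2 h
  by_cases h6 : 6 ≤ n ∧ 5 ≤ r
  · -- three values
    refine exists_diag' p F₀ hs hζ one_ne_zero (by omega) (pat (-2) 1 0 2) hrp (hdet0 _ ?_) (no_inv_three h6.1 h6.2 hθ1)
    have := sum_pat (n := n) (s := 2) (fun c : ZMod r => c) (-2) 1 0 (by omega)
    beta_reduce at this
    rw [this]
    simp
  -- the small cases
  have hsm : (n = 3 ∧ r = 3) ∨ (n = 5 ∧ r = 5) := by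
    have hr35 : r ≠ 4 := by
      rintro rfl
      exact absurd hrpr (by norm_num)
    rcases hnr3 with h | h
    · omega
    · have : r = 3 := by
        by_contra hne
        apply h6
        omega
      subst this
      exact absurd ⟨h, rfl⟩ hgap
  -- `k = 2` and `θ = -1`
  have hfer : θ ^ (r - 1) = 1 := ZMod.pow_card_sub_one_eq_one hθ0
  have hk2 : k = 2 := by
    have h1 : θ ^ Nat.gcd k (r - 1) = 1 := pow_gcd_eq_one.mpr ⟨(by
      have : θ ^ k = 1 := by rw [← hQ, hQ1]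
      exact this), hfer⟩
    by_contra hne
    have hcop : Nat.gcd k (r - 1) = 1 := by
      rcases hsm with ⟨-, rfl⟩ | ⟨-, rfl⟩
      · exact (Nat.Coprime.pow_right 1 ((Nat.coprime_primes hk Nat.prime_two).mpr hne))
      · exact (Nat.Coprime.pow_right 2 ((Nat.coprime_primes hk Nat.prime_two).mpr hne))
    rw [hcop, pow_one] at h1
    exact hθ1 h1
  subst hk2
  have hθm : θ = -1 := by
    have h1 : θ ^ 2 = 1 := by rw [← hQ, hQ1]
    have h2 : (θ - 1) * (θ + 1) = 0 := by linear_combination h1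
    rcases mul_eq_zero.mp h2 with h | h
    · exact absurd (sub_eq_zero.mp h) hθ1
    · exact eq_neg_of_add_eq_zero_left h
  have hnr : n = r := by
    rcases hsm with ⟨h1, h2⟩ | ⟨h1, h2⟩ <;> omega
  subst hnr
  have hdv1 : n ∣ p ^ s + 1 := by
    rw [← ZMod.natCast_eq_zero_iff]
    push_cast at hθ ⊢
    rw [← hθ, hθm]
    ring
  have hv : padicValNat n (p ^ s + 1) ≠ 1 := by
    intro h
    apply hexc
    refine ⟨rfl, rfl, ?_, h⟩
    rcases hsm with ⟨h1, -⟩ | ⟨h1, -⟩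
    · exact Or.inl h1
    · exact Or.inr h1
  have hv1 : 1 ≤ padicValNat n (p ^ s + 1) := one_le_padicValNat_of_dvd (by positivity) hdv1
  have hdv2 : n ^ 2 ∣ p ^ s + 1 := by
    rw [padicValNat_dvd_iff_le (by positivity)]
    omega
  have hq2 : n ^ 2 ∣ q - 1 := by
    have h1 : q - 1 = (p ^ s + 1) * (p ^ s - 1) := by
      have h2 : 1 ≤ p ^ s := Nat.one_le_pow _ _ hp.out.pos
      rw [hqk]
      zify [h2, Nat.one_le_pow 2 (p ^ s) h2]
      ring
    rw [h1]
    exact hdv2.trans (dvd_mul_right _ _)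
  obtain ⟨μ, hμ0, hμ⟩ := exists_order hq hq2
  have hζ' : orderOf (μ ^ n) = n := by
    rw [orderOf_pow_of_dvd hrpr.ne_zero (by rw [hμ]; exact dvd_pow_self _ (by norm_num)), hμ]
    rw [pow_two]
    exact Nat.mul_div_cancel _ hrpr.pos
  refine exists_diag' p F₀ hs hζ' hμ0 (by omega) (pat 1 1 0 0) hrp ?_
    (no_inv_two (by omega) one_ne_zero (by omega) (by omega) hθ1)
  have := sum_pat (n := n) (s := 0) (fun c : ZMod n => c) 1 1 0 (by omega)
  beta_reduce at this
  rw [this]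
  simp [zp, ZMod.val_one]

end main

end Cfsg.Agent.Lib.ElusSub.NegMain
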