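import Cfsg.Agent.Lib.ElusSub.NegMain

/-!
# The positive direction, `r = k`
-/

set_option autoImplicit false
set_option linter.unusedSectionVars false
set_option linter.unusedVariables false
set_option linter.style.haveILetI false

namespace Cfsg.Agent.Lib.ElusSub.Pos

open Polynomial Module Matrix Cfsg.Agent.Lib.ElusSub.Basic Cfsg.Agent.Lib.ElusSub.Descent

universe u

variable {F : Type u} [Field F] [Fintype F] (p : ℕ) [hp : Fact p.Prime] [CharP F p]
variable {r : ℕ} [hr : Fact r.Prime]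

theorem aeval_sub {n : ℕ} (x : Matrix.SpecialLinearGroup (Fin n) F) {z : F}
    (hx : ((x ^ r : Matrix.SpecialLinearGroup (Fin n) F) : Matrix (Fin n) (Fin n) F) = z • (1 : Matrix (Fin n) (Fin n) F)) :
    aeval (x : Matrix (Fin n) (Fin n) F) (X ^ r - C z : F[X]) = 0 := by
  rw [Matrix.SpecialLinearGroup.coe_pow] at hx
  simp only [map_sub, map_pow, aeval_X, aeval_C]
  rw [hx, Algebra.algebraMap_eq_smul_one, sub_self]

/-- A scalar which is not an `r`-th power. -/
theorem scalar_of_not_pow (hr2 : r ≠ 2) {n : ℕ} (x : Matrix.SpecialLinearGroup (Fin n) F) {z : F}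
    (hx : ((x ^ r : Matrix.SpecialLinearGroup (Fin n) F) : Matrix (Fin n) (Fin n) F) = z • (1 : Matrix (Fin n) (Fin n) F))
    (hz : ∀ b : F, b ^ r ≠ z) : ∃ t, n = r * t ∧ z ^ t = 1 := by
  classical
  have hπ : Irreducible (X ^ r - C z : F[X]) := X_pow_sub_C_irreducible_of_prime hr.out hz
  have hπm : (X ^ r - C z : F[X]).Monic := monic_X_pow_sub_C z hr.out.ne_zero
  have hann := aeval_sub x hx
  obtain ⟨t, R, hRi, hRm, hprod⟩ := exists_fin_factors _ (x : Matrix (Fin n) (Fin n) F).charpoly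
    (Matrix.charpoly_monic _) rfl
  have hR : ∀ k, R k = X ^ r - C z := by
    intro k
    have h1 : R k ∣ (x : Matrix (Fin n) (Fin n) F).charpoly := by
      rw [← hprod]
      exact Finset.dvd_prod_of_mem _ (Finset.mem_univ k)
    have h2 := Cfsg.Agent.Lib.PGBC.Poly.dvd_of_annih _ (hRi k) h1 hann
    exact eq_of_monic_of_associated (hRm k) hπm ((hRi k).associated_of_dvd hπ h2)
  have hch : (x : Matrix (Fin n) (Fin n) F).charpoly = (X ^ r - C z) ^ t := by
    rw [← hprod]
    simp [hR]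
  have hdeg : n = r * t := by
    have h1 := Matrix.charpoly_natDegree_eq_dim (x : Matrix (Fin n) (Fin n) F)
    rw [hch, natDegree_pow, natDegree_X_pow_sub_C, Fintype.card_fin] at h1
    rw [← h1, mul_comm]
  refine ⟨t, hdeg, ?_⟩
  have hdet := Matrix.det_eq_sign_charpoly_coeff (x : Matrix (Fin n) (Fin n) F)
  rw [x.det_coe, hch, Fintype.card_fin, hdeg, coeff_zero_eq_eval_zero, eval_pow] at hdet
  have hodd : Odd r := hr.out.odd_of_ne_two hr2
  have e1 : eval 0 (X ^ r - C z : F[X]) = - z := by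
    simp [hr.out.ne_zero]
  rw [e1, pow_mul, hodd.neg_one_pow, ← mul_pow] at hdet
  rw [hdet]
  simp

/-- Roots of scalars when `r` is the degree. -/
theorem exists_rth {q₀ q n : ℕ} (hq : Fintype.card F = q) (hqk : q = q₀ ^ r) (hq₀ : 1 ≤ q₀) (hn : 1 ≤ n) (hr2 : r ≠ 2)
    (hgapk : r ∣ q₀ - 1 → padicValNat r n ≤ padicValNat r (q - 1))
    (x : Matrix.SpecialLinearGroup (Fin n) F) {z : F}
    (hx : ((x ^ r : Matrix.SpecialLinearGroup (Fin n) F) : Matrix (Fin n) (Fin n) F) = z • (1 : Matrix (Fin n) (Fin n) F)) :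
    ∃ μ : F, μ ^ r = z := by
  classical
  by_contra hcon
  push Not at hcon
  have hrpr : r.Prime := hr.out
  obtain ⟨t, hnt, hzt⟩ := scalar_of_not_pow hr2 x hx hcon
  have ht0 : t ≠ 0 := by
    rintro rfl
    omega
  have hz0 : z ≠ 0 := by
    rintro rfl
    rw [zero_pow ht0] at hzt
    exact zero_ne_one hzt
  obtain ⟨g, hg⟩ := IsCyclic.exists_ofOrder_eq_natCard (α := Fˣ)
  have hcard : Nat.card Fˣ = q - 1 := by
    rw [Nat.card_eq_fintype_card, Fintype.card_units, hq]
  rw [hcard] at hg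
  have hq1 : 0 < q - 1 := by
    have : 1 < Fintype.card F := Fintype.one_lt_card
    omega
  obtain ⟨e, he⟩ : ∃ e : ℕ, g ^ e = Units.mk0 z hz0 := by
    have h1 : Units.mk0 z hz0 ∈ Subgroup.zpowers g := by
      have h2 : Subgroup.zpowers g = ⊤ := by
        apply Subgroup.eq_top_of_card_eq
        rw [Nat.card_zpowers, hg, hcard]
      rw [h2]
      exact Subgroup.mem_top _
    have hfin : IsOfFinOrder g := isOfFinOrder_of_finite g
    rw [← hfin.mem_powers_iff_mem_zpowers] at h1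
    exact h1
  have hez : ((g : F)) ^ e = z := by
    have := congrArg (fun u : Fˣ => (u : F)) he
    simpa using this
  have hre : ¬ r ∣ e := by
    rintro ⟨m, rfl⟩
    exact hcon ((g : F) ^ m) (by rw [← pow_mul, mul_comm, hez])
  have hdvd : q - 1 ∣ e * t := by
    rw [← hg]
    apply orderOf_dvd_of_pow_eq_one
    ext
    push_cast
    rw [pow_mul, hez, hzt]
  -- `r ∣ q - 1`
  have hrq : r ∣ q - 1 := by
    by_contra hnd
    have hcop : Nat.Coprime (Nat.card Fˣ) r := by
      rw [hcard]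
      exact ((Nat.Prime.coprime_iff_not_dvd hrpr).mpr hnd).symm
    obtain ⟨b, hb⟩ := (powCoprime hcop).surjective (Units.mk0 z hz0)
    apply hcon (b : F)
    have := congrArg (fun u : Fˣ => (u : F)) hb
    simpa using this
  have hrq₀ : r ∣ q₀ - 1 := by
    have h1 : (q : ZMod r) = 1 := by
      have h2 : ((q - 1 : ℕ) : ZMod r) = 0 := (ZMod.natCast_eq_zero_iff _ _).mpr hrq
      rw [Nat.cast_sub (by omega), sub_eq_zero] at h2
      simpa using h2
    rw [hqk] at h1
    push_cast at h1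
    rw [ZMod.pow_card] at h1
    rw [← ZMod.natCast_eq_zero_iff, Nat.cast_sub hq₀, h1]
    simp
  have hle := hgapk hrq₀
  have hv : padicValNat r n = 1 + padicValNat r t := by
    rw [hnt, padicValNat.mul hrpr.ne_zero ht0, padicValNat_self]
  have hw : r ^ padicValNat r (q - 1) ∣ t := by
    have h1 : r ^ padicValNat r (q - 1) ∣ e * t := pow_padicValNat_dvd.trans hdvd
    have hcop : Nat.Coprime (r ^ padicValNat r (q - 1)) e :=
      Nat.Coprime.pow_left _ ((Nat.Prime.coprime_iff_not_dvd hrpr).mpr hre)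
    exact hcop.dvd_of_dvd_mul_left h1
  have hw2 := (padicValNat_dvd_iff_le ht0).mp hw
  omega

/-- The positive direction, when `r` is the degree. -/
theorem pos_k (F₀ : Subfield F) {s q n : ℕ} (hs : Nat.card F₀ = p ^ s) (hq : Fintype.card F = q)
    (hqk : q = (p ^ s) ^ r) (hn : 1 ≤ n) (hr2 : r ≠ 2) (hrp : r ≠ p)
    (hgapk : r ∣ p ^ s - 1 → padicValNat r n ≤ padicValNat r (q - 1))
    (x : Matrix.SpecialLinearGroup (Fin n) F) {z : F}
    (hx : ((x ^ r : Matrix.SpecialLinearGroup (Fin n) F) : Matrix (Fin n) (Fin n) F) = z • (1 : Matrix (Fin n) (Fin n) F)) :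
    ∃ P : Matrix.SpecialLinearGroup (Fin n) F, P⁻¹ * x * P ∈ (Cfsg.Geo.subfieldSubgroup F₀ 1).comap
      (Matrix.SpecialLinearGroup.toGL : Matrix.SpecialLinearGroup (Fin n) F →* GL (Fin n) F) := by
  classical
  have hrpr : r.Prime := hr.out
  have hrF : ((r : ℕ) : F) ≠ 0 := by
    rw [Ne, CharP.cast_eq_zero_iff F p]
    intro h
    exact hrp ((Nat.prime_dvd_prime_iff_eq hp.out hrpr).mp h).symm
  obtain ⟨μ, hμ⟩ := exists_rth hq hqk (Nat.one_le_pow _ _ hp.out.pos) hn hr2 hgapk x hx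
  have hz0 : z ≠ 0 := by
    rintro rfl
    have h1 := congrArg Matrix.det hx
    haveI : Nonempty (Fin n) := ⟨⟨0, hn⟩⟩
    rw [Matrix.SpecialLinearGroup.det_coe, zero_smul, Matrix.det_zero] at h1
    exact one_ne_zero h1
  have hμ0 : μ ≠ 0 := by
    rintro rfl
    rw [zero_pow hrpr.ne_zero] at hμ
    exact hz0 hμ.symm
  set B : Matrix (Fin n) (Fin n) F := μ⁻¹ • (x : Matrix (Fin n) (Fin n) F) with hB
  have hBr : B ^ r = 1 := by
    rw [hB, _root_.smul_pow, ← Matrix.SpecialLinearGroup.coe_pow, hx, smul_smul, inv_pow, hμ, inv_mul_cancel₀ hz0, one_smul]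
  have hmod : q % r = (p ^ s) % r := by
    have h1 : (q : ZMod r) = ((p ^ s : ℕ) : ZMod r) := by
      rw [hqk]
      push_cast
      rw [ZMod.pow_card]
    exact (ZMod.natCast_eq_natCast_iff' _ _ _).mp h1
  have hpow : B ^ q = B ^ (p ^ s) := by
    rw [pow_eq_pow_mod q hBr, pow_eq_pow_mod (p ^ s) hBr, hmod]
  have hfrob : B.charpoly.map (iterateFrobenius F p s) = B.charpoly := by
    rw [← charpoly_pow_frob p B s, ← hpow, ← hq, FiniteField.Matrix.charpoly_pow_card]
  exact exists_conj_of_coeff F₀ hn x μ hμ0 hrF hBr (coeff_of_map_frob p F₀ hs hfrob)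

end Cfsg.Agent.Lib.ElusSub.Pos
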